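import Cfsg.Agent.H4.Cyc3

/-!
# Frobenius groups with cyclic kernel as models for cyclic blocks
-/

set_option autoImplicit false
set_option linter.unusedSectionVars false

namespace H4
open MonoidAlgebra Cfsg H1 H3
open scoped Pointwise ComplexConjugate

variable {G : Type*} [Group G] [Finite G] {p : ℕ} [hp : Fact p.Prime] {Q : Subgroup G} {χ ψ : IrrCharacter G}

theorem nonconst_of_index_lt [Q.Normal] (h : Q.index < Nat.card Q) (hne : χ ≠ ψ) (h1 : ∃ x ∈ Q, χ.1 x ≠ χ.1 1)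
    (h2 : ∃ x ∈ Q, ψ.1 x ≠ ψ.1 1) (n : ℤ) : ∃ t : Q, t ≠ 1 ∧ χ.1 t ≠ n := by
  classical
  have := Fintype.ofFinite Q
  by_contra! h3
  have h4 : classInner (fun t : Q => χ.1 t) (hf 1) = 0 := by
    have := Fintype.ofFinite G
    by_contra h4
    obtain ⟨e, -, -, h5⟩ := clifford_invariant_nat Q χ.2 (isIrr_hom 1) (fun _ => rfl) h4
    obtain ⟨x, hx, h6⟩ := h1
    exact h6 ((h5 ⟨x, hx⟩).trans (h5 1).symm)
  rw [classInner, ← Finset.add_sum_erase _ _ (Finset.mem_univ 1), Finset.sum_congr rfl (g := fun _ => (n : ℂ))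
    fun t ht => by simp [h3 t (Finset.ne_of_mem_erase ht)], Finset.sum_const,
    Finset.card_erase_of_mem (Finset.mem_univ _), Finset.card_univ, ← Nat.card_eq_fintype_card,
    mul_eq_zero_iff_left (inv_ne_zero (card_ne_zero' _))] at h4
  obtain ⟨q, hq⟩ : ∃ q, Nat.card Q = q + 1 := ⟨_, (Nat.succ_pred_eq_of_pos Nat.card_pos).symm⟩
  have h5 : (charDegree χ.1 : ℤ) = q * -n := Int.cast_injective (α := ℂ) (by
    simpa [-Nat.card_eq_fintype_card, hq, irr_one_eq, add_eq_zero_iff_eq_neg] using h4)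
  have h6 : q ≤ charDegree χ.1 := Nat.le_of_dvd (Nat.pos_of_ne_zero (charDegree_ne_zero χ.2))
    (Int.natCast_dvd_natCast.1 ⟨_, h5⟩)
  have h7 := sum_sq_degree (G := G)
  rw [← Finset.sum_filter_add_sum_filter_not _ fun χ : IrrCharacter G => ∀ n ∈ Q, χ.1 n = χ.1 1,
    show ∑ _ with _, _ = (Q.index : ℂ) by convert sum_sq_degree_ker Q,
    ← Q.card_mul_index, hq] at h7
  simp only [irr_one_eq] at h7
  have h8 := Finset.sum_le_sum_of_subset (f := fun χ : IrrCharacter G => charDegree χ.1 ^ 2)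
    (show {χ, ψ} ⊆ Finset.univ.filter fun χ : IrrCharacter G => ¬ ∀ n ∈ Q, χ.1 n = charDegree χ.1 by
      simpa [Finset.insert_subset_iff, irr_one_eq] using And.intro h1 h2)
  rw [Finset.sum_pair hne] at h8
  have := Nat.pos_of_ne_zero (charDegree_ne_zero ψ.2)
  norm_cast at h7
  nlinarith [Nat.mul_le_mul h6 h6, Nat.mul_le_mul_left q (Nat.le_of_lt_succ (hq ▸ h))]

theorem normal_of_index_lt (P : Sylow p G) (h : (P : Subgroup G).index < p) : (P : Subgroup G).Normal := by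
  have h1 := card_sylow_modEq_one p G
  have h2 := (Nat.le_of_dvd (Nat.pos_of_ne_zero Subgroup.index_ne_zero_of_finite) P.card_dvd_index).trans_lt h
  have := (Nat.card_eq_one_iff_unique.1 (h1.eq_of_lt_of_lt h2 hp.out.one_lt)).1
  exact P.normal_of_subsingleton

theorem mulAut_eq_of_card [IsCyclic G] (hG : IsPGroup p G) {Γ Δ : Subgroup (MulAut G)} (h : Nat.card Γ = Nat.card Δ)
    (h1 : Nat.card Γ ∣ p - 1) : Γ = Δ := by
  rcases eq_or_ne p 2 with rfl | h2
  · rw [Subgroup.eq_bot_of_card_eq Γ (by simpa using h1), Subgroup.eq_bot_of_card_eq Δ (by simpa [h] using h1)]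
  obtain ⟨n, hn⟩ := IsPGroup.iff_card.1 hG
  have : IsCyclic (ZMod (Nat.card G))ˣ := hn ▸ ZMod.isCyclic_units_of_prime_pow p hp.out h2 n
  have := isCyclic_of_injective (IsCyclic.mulAutMulEquiv G).toMonoidHom (MulEquiv.injective _)
  exact le_antisymm (cyclic_le_of_card_dvd h.dvd) (cyclic_le_of_card_dvd h.symm.dvd)

end H4
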