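import Cfsg.Agent.H4.Klein
import Cfsg.Agent.H4.Inv
import Cfsg.Agent.H1.DI
import Cfsg.Agent.H1.Tr2
import Cfsg.Agent.H3.BT

/-!
# The principal block of a group with dihedral Sylow `2`-subgroups
-/

set_option autoImplicit false
set_option linter.unusedSectionVars false

namespace H4
open MonoidAlgebra Cfsg H1 Subgroup
open scoped Pointwise ComplexConjugate

section comb
variable {ι : Type*} [DecidableEq ι] {s : Finset ι} {o i : ι} {u : ι → ℤ}

theorem supp_of_norm {t : Finset ι} (ht : t ⊆ s) (h : ∑ k ∈ s, u k * u k ≤ ∑ k ∈ t, u k * u k) {k : ι} (hk : k ∈ s)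
    (hk' : k ∉ t) : u k = 0 := by
  have := sum_mul_of_subset (R := ℤ) ht h fun j => if j = k then 1 else 0
  simpa [hk, hk'] using this

theorem norm_three' (ho : o ∈ s) (hi : i ∈ s) (h0 : i ≠ o) (h1 : u o = 1) (h2 : u i = 1 ∨ u i = -1)
    (h : ∑ k ∈ s, u k * u k = 3) : ∃ j ∈ s, j ≠ o ∧ j ≠ i ∧ (u j = 1 ∨ u j = -1) ∧
      ∀ k ∈ s, u k = (if k = o then 1 else 0) + (if k = i then u i else 0) + if k = j then u j else 0 := by
  have e2 : u i * u i = 1 := by rcases h2 with h | h <;> simp [h]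
  obtain ⟨j, hj, hj', h3⟩ := exists_unit_notMem (u := u) (t := {o, i}) (s := s)
    (by simp [Finset.insert_subset_iff, hi, ho]) (by simp [h, h1, e2, Finset.sum_pair h0.symm])
    (by simp [h, h1, e2, Finset.sum_pair h0.symm])
  have e3 : u j * u j = 1 := by rcases h3 with h | h <;> simp [h]
  simp only [Finset.mem_insert, Finset.mem_singleton, not_or] at hj'
  refine ⟨j, hj, hj'.1, hj'.2, h3, fun k hk => ?_⟩
  by_cases e : k ∈ ({o, i, j} : Finset ι)
  · simp only [Finset.mem_insert, Finset.mem_singleton] at e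
    rcases e with rfl | rfl | rfl <;> simp [h0, h0.symm, hj'.1, hj'.2, Ne.symm hj'.1, Ne.symm hj'.2, h1]
  · rw [supp_of_norm (u := u) (t := {o, i, j}) (by simp [Finset.insert_subset_iff, hi, ho, hj]) (by
      rw [Finset.sum_insert (by simp [h0.symm, Ne.symm hj'.1]), Finset.sum_pair (Ne.symm hj'.2), h, h1, e2, e3]; norm_num) hk e]
    simp only [Finset.mem_insert, Finset.mem_singleton, not_or] at e
    simp [e]

theorem norm_four' (ho : o ∈ s) (hi : i ∈ s) (h0 : i ≠ o) (h1 : u o = 1) (h2 : u i = 1 ∨ u i = -1)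
    (h : ∑ k ∈ s, u k * u k = 4) : ∃ j ∈ s, ∃ l ∈ s, j ≠ o ∧ j ≠ i ∧ l ≠ o ∧ l ≠ i ∧ j ≠ l ∧ (u j = 1 ∨ u j = -1) ∧
      (u l = 1 ∨ u l = -1) ∧ ∀ k ∈ s, u k = (if k = o then 1 else 0) + (if k = i then u i else 0) +
        (if k = j then u j else 0) + if k = l then u l else 0 := by
  have e2 : u i * u i = 1 := by rcases h2 with h | h <;> simp [h]
  obtain ⟨j, hj, hj', h3⟩ := exists_unit_notMem (u := u) (t := {o, i}) (s := s)
    (by simp [Finset.insert_subset_iff, hi, ho]) (by simp [h, h1, e2, Finset.sum_pair h0.symm])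
    (by simp [h, h1, e2, Finset.sum_pair h0.symm])
  have e3 : u j * u j = 1 := by rcases h3 with h | h <;> simp [h]
  simp only [Finset.mem_insert, Finset.mem_singleton, not_or] at hj'
  obtain ⟨l, hl, h4, h5, h6, h7⟩ := norm_three' (s := s.erase j) (u := u) (o := o) (i := i) (by simp [ho, Ne.symm hj'.1])
    (by simp [hi, Ne.symm hj'.2]) h0 h1 h2 (by have := Finset.add_sum_erase s (fun k => u k * u k) hj; omega)
  rw [Finset.mem_erase] at hl
  refine ⟨j, hj, l, hl.2, hj'.1, hj'.2, h4, h5, hl.1.symm, h3, h6, fun k hk => ?_⟩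
  by_cases e : k = j
  · simp [e, hj'.1, hj'.2, hl.1.symm]
  · rw [h7 k (Finset.mem_erase.2 ⟨e, hk⟩)]; simp [e]

theorem dih_comb {κ : Type*} {u : κ → ι → ℤ} {w d : ι → ℤ} (j₀ : κ) (hκ : ∀ i j : κ, i ≠ j → ∃ k, k ≠ i ∧ k ≠ j)
    (ho : o ∈ s) (hd : ∀ k, 0 < d k) (d0 : d o = 1) (u0 : ∀ j, u j o = 1) (w0 : w o = 1)
    (uu : ∀ j, ∑ k ∈ s, u j k * u j k = 3) (uu' : ∀ i j, i ≠ j → ∑ k ∈ s, u i k * u j k = 2)
    (uw : ∀ j, ∑ k ∈ s, u j k * w k = 2) (ww : ∑ k ∈ s, w k * w k = 4) (ud : ∀ j, ∑ k ∈ s, u j k * d k = 0)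
    (wd : ∑ k ∈ s, w k * d k = 0) : ∃ a ∈ s, ∃ b ∈ s, ∃ c ∈ s, ∃ (y : κ → ι) (δ₁ δ₂ δ₃ : ℤ), (δ₁ = 1 ∨ δ₁ = -1) ∧
      (δ₂ = 1 ∨ δ₂ = -1) ∧ (δ₃ = 1 ∨ δ₃ = -1) ∧ y.Injective ∧ a ≠ o ∧ b ≠ o ∧ c ≠ o ∧ a ≠ b ∧ a ≠ c ∧ b ≠ c ∧
      (∀ j, y j ∈ s ∧ y j ≠ a ∧ y j ≠ b ∧ y j ≠ c ∧ y j ≠ o) ∧
      (∀ j, ∀ k ∈ s, u j k = (if k = o then 1 else 0) + (if k = a then δ₁ else 0) + if k = y j then -δ₁ else 0) ∧
      ∀ k ∈ s, w k = (if k = o then 1 else 0) + (if k = a then δ₁ else 0) + (if k = b then δ₂ else 0) +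
        if k = c then δ₃ else 0 := by
  have k1 : ∀ j, ∃ a ∈ s, ∃ b ∈ s, a ≠ o ∧ b ≠ o ∧ (w a = 1 ∨ w a = -1) ∧ w b = 0 ∧
      ∀ k ∈ s, u j k = (if k = o then 1 else 0) + (if k = a then w a else 0) + if k = b then -w a else 0 := fun j => by
    obtain ⟨a, ha, b, hb, h1, h2, h3, h4, h5, h6⟩ := sum_mul_of_norm_three ho (u0 j) (uu j)
    have e1 := (h6 w).symm.trans (uw j)
    have e2 := (h6 d).symm.trans (ud j)
    have e3 := fun k => h6 fun l => if l = k then (1 : ℤ) else 0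
    have e4 := sq_add_sq_le w ho ha h1.symm
    have e5 := sq_add_sq_le w ho hb h2.symm
    simp only [Int.cast_id, mul_ite, mul_one, mul_zero, Finset.sum_ite_eq', w0, d0, ww, @eq_comm _ o, @eq_comm _ a,
      @eq_comm _ b] at e1 e2 e3 e4 e5
    have e6 : -2 < w a ∧ w a < 2 := by constructor <;> nlinarith
    have e7 : -2 < w b ∧ w b < 2 := by constructor <;> nlinarith
    have := hd a
    have := hd b
    by_cases e : w b = 0
    · refine ⟨a, ha, b, hb, h1, h2, ?_, e, fun k hk => ?_⟩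
      · rcases h4 with h | h <;> simp only [h, e] at e1 <;> omega
      · rw [← if_pos hk (t := u j k) (e := 0), e3]
        rcases h4 with h | h <;> rcases h5 with h' | h' <;> simp only [h, h', e] at e1 e2 ⊢ <;> congr <;> omega
    · have e' : w a = 0 := by rcases h4 with h | h <;> rcases h5 with h' | h' <;> simp only [h, h'] at e1 <;> omega
      refine ⟨b, hb, a, ha, h2, h1, by omega, e', fun k hk => ?_⟩
      rw [← if_pos hk (t := u j k) (e := 0), e3, add_right_comm]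
      rcases h4 with h | h <;> rcases h5 with h' | h' <;> simp only [h, h', e'] at e1 e2 ⊢ <;> congr <;> omega
  choose a ha b hb h1 h2 h3 h4 h5 using k1
  have ne : ∀ i j, a i ≠ b j := fun i j e => by have := h3 i; rw [e, h4] at this; omega
  have k2 : ∀ i (v : ι → ℤ), ∑ k ∈ s, u i k * v k = v o + w (a i) * v (a i) - w (a i) * v (b i) := fun i v => by
    rw [Finset.sum_congr rfl fun k hk => by rw [h5 i k hk]]
    simp [add_mul, Finset.sum_add_distrib, ho, ha, hb, sub_eq_add_neg]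
  have k3 : ∀ i j, i ≠ j → (a i = a j ∧ b i ≠ b j) ∨ (a i ≠ a j ∧ b i = b j ∧ w (a i) = w (a j)) := fun i j hij => by
    have := uu' i j hij
    rw [k2, u0, h5 j _ (ha i), h5 j _ (hb i)] at this
    simp only [h1, h2, ne, (ne _ _).symm, if_false, zero_add, add_zero] at this
    by_cases e : a i = a j <;> by_cases e' : b i = b j <;> simp only [e, e', if_true, if_false] at this ⊢ <;>
      rcases h3 i with h | h <;> rcases h3 j with h' | h' <;> simp_all
  have k4 : ∀ i j, a i = a j := fun i j => by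
    by_contra hc
    have hij : i ≠ j := fun e => hc (e ▸ rfl)
    obtain ⟨-, e1, e2⟩ := (k3 i j hij).resolve_left fun h => hc h.1
    obtain ⟨k, hi, hj⟩ := hκ i j hij
    obtain ⟨e3, e4, e5⟩ : a k ≠ a i ∧ b k = b i ∧ w (a k) = w (a i) := (k3 k i hi).resolve_left fun h => by
      rcases k3 k j hj with h' | h'
      exacts [hc (h.1.symm.trans h'.1), h.2 (h'.2.1.trans e1.symm)]
    have e6 : a k ≠ a j := ((k3 k j hj).resolve_left fun h => h.2 (e4.trans e1)).1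
    have := sum_mul_of_subset (R := ℤ) (u := w) (t := {o, a i, a j, a k}) (s := s) (by
      simp [Finset.insert_subset_iff, ho, ha]) (by
        rw [Finset.sum_insert (by simp [(h1 _).symm]), Finset.sum_insert (by simp [hc, e3.symm]), Finset.sum_pair e6.symm,
          ww, w0, e5, ← e2]
        rcases h3 i with h | h <;> simp [h]) d
    rw [Finset.sum_insert (by simp [(h1 _).symm]), Finset.sum_insert (by simp [hc, e3.symm]), Finset.sum_pair e6.symm] at this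
    have f1 := (k2 i d).symm.trans (ud i)
    have f2 := (k2 j d).symm.trans (ud j)
    have f3 := (k2 k d).symm.trans (ud k)
    simp only [Int.cast_id, wd, w0, d0, e5, ← e2, e4, ← e1] at this f1 f2 f3
    omega
  obtain ⟨b', hb', c, hc, g1, g2, g3, g4, g5, g6, g7, g8⟩ := norm_four' ho (ha j₀) (h1 j₀) w0 (h3 j₀) ww
  refine ⟨a j₀, ha _, b', hb', c, hc, b, _, _, _, h3 j₀, g6, g7, fun i j e => by_contra fun h => ?_, h1 _, g1, g3, g2.symm,
    g4.symm, g5, fun j => ⟨hb j, (ne _ _).symm, fun e => ?_, fun e => ?_, h2 j⟩, fun j k hk => by rw [h5 j k hk, k4 j j₀], g8⟩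
  · exact (k3 i j h).elim (fun h => h.2 e) fun h => h.1 (k4 i j)
  · have := h4 j; rw [e] at this; omega
  · have := h4 j; rw [e] at this; omega

end comb

variable {G : Type*} [Group G] [Finite G] {M : Ideal AlgInt} {S : Subgroup G} {n : ℕ} {a b u w s t y : G}

theorem di_cases (h : DI S n a b) (hs : s ∈ S) (hu : u ∈ zpowers a) : s * u * s⁻¹ = u ∨ s * u * s⁻¹ = u⁻¹ := by
  by_cases h1 : s ∈ zpowers a
  · exact .inl (mul_inv_eq_iff_eq_mul.2 (cyclic_le_CS inferInstance hu s h1))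
  · exact .inr (h.toMC.conj_inv h.conj hs h1 hu)

theorem di_fusion (h : DI S n a b) (hS : IsSylowIn 2 S ⊤) (hu : u ∈ zpowers a) (hw : w ∈ zpowers a) :
    IsConj u w ↔ w = u ∨ w = u⁻¹ := by
  refine ⟨fun h1 => ?_, ?_⟩
  · obtain ⟨g, rfl⟩ := isConj_iff.1 h1
    have h2 : g ∈ NS (zpowers u) := H2.mem_normalizer_of_cj_le (by
      rw [H2.cj_zpowers]
      exact zpowers_le.2 (cyclic_mem_zpowers inferInstance hu hw (by rw [conj_pow, pow_orderOf_eq_one]; simp)))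
    have h4 := hS.of_le (le_inf le_top (h.toMC.norm' (zpowers_le.2 hu))) le_top
    obtain ⟨s, hs, c, hc, rfl⟩ := H2.exists_sylow_mul_centralizer ⟨h4.le, h4.isPGroup, h4.not_dvd⟩
      (fun g _ hg h5 => mem_CS_of_cyclic_two inferInstance (hS.isPGroup.to_le (zpowers_le.2 (h.toMC.le hu)))
        hg ((Nat.Prime.coprime_iff_not_dvd Nat.prime_two).1 h5.symm)) ⟨trivial, h2⟩
    rw [show s * c * u * (s * c)⁻¹ = s * (c * u * c⁻¹) * s⁻¹ by group, ← hc.2 u (mem_zpowers u), mul_inv_cancel_right]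
    exact di_cases h hs hu
  · rintro (rfl | rfl)
    exacts [.refl _, isConj_iff.2 ⟨b, h.toMC.conj_inv h.conj h.hb h.nb hu⟩]

theorem di_sylz (h : DI S n a b) (hS : IsSylowIn 2 S ⊤) : IsSylowIn 2 S (C1 (a ^ 2 ^ n)) :=
  hS.of_le (fun _ hx => mem_centralizer_singleton.2 (h.toMC.z_comm hx).symm) le_top

theorem di_npc (h : DI S n a b) (hS : IsSylowIn 2 S ⊤) : HasNormalPComplement 2 (C1 (a ^ 2 ^ n)) := by
  have h1 := di_sylz h hS
  refine H2.frobenius_rel ⟨h1.le, h1.isPGroup, h1.not_dvd⟩ fun Q hQ _ _ g hg hn ho => by_contra fun hc => ?_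
  have hk := h.od_klein hQ ⟨g, hn, ho, hc⟩
  exact klein_not_fix hk hn ho hc (h.toMC.klein hQ hk).1 (ne_one_of_two h.toMC.oz)
    (mul_inv_eq_iff_eq_mul.2 (mem_centralizer_singleton.1 hg).symm)

open Classical in
theorem di_idx (h : DI S n a b) (hS : IsSylowIn 2 S ⊤) (hu : u ∈ zpowers a) (h1 : u ≠ 1) :
    (pPrimeCore 2 (C1 u)).index = 2 ^ (if u = u⁻¹ then n + 2 else n + 1) := by
  split_ifs with e
  · rw [h.toMC.eq_z hu (orderOf_two_of (mul_eq_one_iff_eq_inv.2 e) h1), index_pPrimeCore_of_NPC (di_npc h hS),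
      ← (di_sylz h hS).card_eq, h.toMC.card]
  · have h2 := hS.inf_normal (K := C1 u) le_top ((h.toMC.norm' (zpowers_le.2 hu)).trans (CS_zpowers u ▸ NS_le_NS_CS _))
    rw [show S ⊓ C1 u = zpowers a from le_antisymm (fun x hx => by_contra fun hx' => e ?_) (le_inf h.toMC.le fun x hx =>
      mem_centralizer_singleton.2 (cyclic_le_CS inferInstance hx u hu))] at h2
    · rw [index_core_of_cyclic h2 inferInstance, Nat.card_zpowers, h.ord]
    · rw [← h.toMC.conj_inv h.conj hx.1 hx' hu, ← (mem_centralizer_singleton.1 hx.2).eq, mul_inv_cancel_right]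

theorem di_val [Fintype (zpowers a)] (hM : IsPModular 2 M) (h : DI S n a b) (hS : IsSylowIn 2 S ⊤) (f : zpowers a → ℂ)
    {w : zpowers a} (hw : w ≠ 1) : ∑ χ ∈ fs (principalBlock M G), classInner f (fun x : zpowers a => χ.1 x) * χ.1 w =
      f w + f w⁻¹ := by
  classical
  have pe : ∀ u : zpowers a, IsPElt 2 (u : G) := fun u => isPElt_of_mem Nat.prime_two hS.isPGroup (h.toMC.le u.2)
  have h1 := KB_principal_self hM (pe w) (di_idx h hS w.2 (by simpa using hw))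
  rw [sum_inner_res_mul, ← Finset.sum_subset (Finset.subset_univ {w, w⁻¹}), Nat.card_zpowers, h.ord]
  · by_cases e : (w : G) = (w : G)⁻¹
    · rw [show w⁻¹ = w from Subtype.ext e.symm, Finset.pair_eq_singleton, Finset.sum_singleton, h1, if_pos e]
      push_cast; field_simp; ring
    · rw [Finset.sum_pair fun e' => e (congrArg Subtype.val e'), ← conj_KB _ ((w⁻¹ : zpowers a) : G),
        ← H3.class_isConj (class_KB _ _) ((di_fusion h hS w.2 (w⁻¹).2).2 (.inr rfl)), h1, if_neg e, map_natCast]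
      field_simp
  · intro u _ hu
    rw [KB_eq_zero hM isPBlock_principal, mul_zero]
    rw [pp_of_isPElt Nat.prime_two (pe w), pp_of_isPElt Nat.prime_two (pe u), di_fusion h hS w.2 u.2]
    rw [Finset.mem_insert, Finset.mem_singleton] at hu
    exact fun h => hu (h.imp Subtype.ext Subtype.ext)

/-- the generalised character `1 - l` -/
def om1 {A : Type*} [Group A] (l : A →* ℂˣ) : A → ℂ := (fun g => ((1 : A →* ℂˣ) g : ℂ)) - fun g => (l g : ℂ)

open Classical in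
theorem di_vec [Fintype (zpowers a)] (hM : IsPModular 2 M) (h : DI S n a b) (hS : IsSylowIn 2 S ⊤) :
    ∃ v : (zpowers a →* ℂˣ) → IrrCharacter G → ℤ,
      (∀ l χ, classInner (om1 l) (fun x : zpowers a => χ.1 x) = v l χ) ∧ (∀ l, l ≠ 1 → v l (triv G) = 1) ∧
      (∀ l l', l ≠ 1 → l' ≠ 1 → ∑ χ ∈ fs (principalBlock M G), v l χ * v l' χ =
        2 + (if l = l' then 1 else 0) + if l⁻¹ = l' then 1 else 0) ∧
      (∀ l g (w : zpowers a), IsConj w.1 (pp 2 g) →
        ∑ χ ∈ fs (principalBlock M G), v l χ * χ.1 g = 2 - l w - (l w : ℂ)⁻¹) ∧ (∀ l χ, v l⁻¹ χ = v l χ) ∧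
      ∀ l : zpowers a →* ℂˣ, Function.Injective l → ∀ χ (w : zpowers a), w ≠ 1 →
        χ.1 w = -∑ j ∈ Finset.range (2 ^ (n + 1)), v (l ^ j) χ * (l w : ℂ) ^ j := by
  choose v hv using fun (l : zpowers a →* ℂˣ) (χ : IrrCharacter G) => H3.inner_gen_int (H3.gen_sub
    (H3.char_gen (H3.char_hom 1)) (H3.char_gen (H3.char_hom l))) (H3.gen_restrict (H3.irr_gen χ.2) (zpowers a))
  replace hv : ∀ l χ, classInner (om1 l) (fun x : zpowers a => χ.1 x) = v l χ := hv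
  have hv' : ∀ l χ, classInner (fun x : zpowers a => χ.1 x) (om1 l) = v l χ := fun l χ => by
    rw [← H3.inner_conj_symm, hv, map_intCast]
  have val : ∀ l (w : zpowers a), w ≠ 1 → ∑ χ ∈ fs (principalBlock M G), v l χ * χ.1 w = om1 l w + om1 l w⁻¹ :=
    fun l w hw => by simp only [← hv, di_val hM h hS _ hw]
  refine ⟨v, hv, fun l hl => ?_, fun l l' h1 h2 => ?_, fun l g w hw => ?_, fun l χ => ?_, fun l hl χ w hw => ?_⟩
  · have := hv l (triv G)
    rw [show (fun g : zpowers a => (triv G : G → ℂ) g) = fun g => ((1 : zpowers a →* ℂˣ) g : ℂ) from rfl, om1,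
      H3.inner_sub_left, H3.inner_hom, H3.inner_hom, if_pos rfl, if_neg hl, sub_zero] at this
    exact_mod_cast this.symm
  · have : ∑ χ ∈ fs (principalBlock M G), (v l χ : ℂ) * v l' χ = classInner (om1 l + om1 l⁻¹) (om1 l') := by
      rw [Finset.sum_congr rfl (g := fun χ => classInner ((v l χ : ℂ) • fun g : zpowers a => (χ : G → ℂ) g) (om1 l'))
        fun χ _ => by rw [H3.inner_smul_left, hv'], ← H3.inner_sum_left]
      refine congrArg _ (Finset.sum_congr rfl fun w _ => ?_)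
      by_cases h0 : w = 1
      · simp [h0, om1]
      · simp only [Finset.sum_apply, Pi.smul_apply, smul_eq_mul, val l w h0]
        simp [om1]
    simp only [om1, H3.inner_add_left, H3.inner_sub_left, H3.inner_sub_right, H3.inner_hom, h1, h2.symm,
      show l⁻¹ ≠ 1 from fun e => h1 (MonoidHom.ext fun x => by simpa using DFunLike.congr_fun e x),      if_true, if_false] at this
    refine Int.cast_injective (α := ℂ) ?_
    push_cast
    rw [this]; ring
  · by_cases h0 : w = 1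
    · simp only [← hv]
      rw [sum_inner_res_mul, Finset.sum_eq_zero fun u _ => ?_, h0]
      · simp; ring
      by_cases e : u = 1
      · simp [e, om1]
      rw [KB_eq_zero hM isPBlock_principal, mul_zero]
      rw [pp_of_isPElt Nat.prime_two (isPElt_of_mem Nat.prime_two hS.isPGroup (h.toMC.le u.2))]
      exact fun h' => e (by simpa [h0, eq_comm] using hw.trans h')
    · rw [Finset.sum_congr rfl fun χ hχ => by
        rw [principal_eq_of_conj hM (di_idx h hS w.2 (by simpa using h0)) hw (mem_fs.1 hχ)], val l w h0]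
      simp [om1]; ring
  · refine Int.cast_injective (α := ℂ) ?_
    rw [← hv, ← hv, classInner, classInner, ← Equiv.sum_comp (Equiv.inv _)]
    refine congrArg _ (Finset.sum_congr rfl fun u _ => ?_)
    rw [H3.class_isConj (H3.irr_class χ.2) ((di_fusion h hS u.2 (u⁻¹).2).2 (.inr rfl))]
    simp [om1]
  · have hc : Nat.card (zpowers a) = 2 ^ (n + 1) := by rw [Nat.card_zpowers, h.ord]
    have k : ∀ x : zpowers a, ∑ j ∈ Finset.range (2 ^ (n + 1)), (l x : ℂ) ^ j = if x = 1 then 2 ^ (n + 1) else 0 := fun x => by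
      split_ifs with e
      · simp [e]
      · refine mul_right_cancel₀ (b := (l x : ℂ) - 1) (sub_ne_zero.2 fun e' => e (hl (Units.ext (by simpa using e')))) ?_
        rw [geom_sum_mul, ← Units.val_pow_eq_pow_val, ← map_pow, ← hc, pow_card_eq_one']; simp
    have : ∀ j, (v (l ^ j) χ : ℂ) * (l w : ℂ) ^ j = (2 ^ (n + 1) : ℂ)⁻¹ * ∑ u : zpowers a, χ.1 u *
        ((l w : ℂ) ^ j - (l (u⁻¹ * w) : ℂ) ^ j) := fun j => by
      rw [← hv', classInner, hc, mul_assoc, Finset.sum_mul]; push_cast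
      refine congrArg _ (Finset.sum_congr rfl fun u _ => ?_)
      simp [om1, ← H3.hom_inv_eq_conj, mul_pow]; ring
    simp only [this, ← Finset.mul_sum]
    rw [Finset.sum_comm]
    simp only [← Finset.mul_sum, Finset.sum_sub_distrib, k, hw, inv_mul_eq_one]
    simp [mul_comm (χ.1 w)]

theorem exists_faithful {m : ℕ} (ha : orderOf a = m) {ζ : ℂ} (hζ : IsPrimitiveRoot ζ m) :
    ∃ l : zpowers a →* ℂˣ, Function.Injective l ∧ (∀ j, l ^ j = 1 ↔ m ∣ j) ∧
      ∀ k, (l ⟨a ^ k, pow_mem (mem_zpowers a) k⟩ : ℂ) = ζ ^ k := by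
  have gen : ∀ x : zpowers a, x ∈ zpowers (⟨a, mem_zpowers a⟩ : zpowers a) := fun ⟨_, k, hk⟩ => ⟨k, Subtype.ext hk⟩
  have h0 : m ≠ 0 := ha ▸ (orderOf_pos a).ne'
  have hz := hζ.isUnit_unit h0
  let l := monoidHomOfForallMemZpowers gen (g' := (hζ.isUnit h0).unit) (by rw [orderOf_mk, ha, ← hz.eq_orderOf])
  have hl : l ⟨a, mem_zpowers a⟩ = _ := monoidHomOfForallMemZpowers_apply_gen _ _
  refine ⟨l, (injective_iff_map_eq_one _).2 fun x hx => ?_, fun j => ?_, fun k => ?_⟩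
  · obtain ⟨k, rfl⟩ := gen x
    rw [map_zpow, hl, hz.zpow_eq_one_iff_dvd] at hx
    rwa [← orderOf_dvd_iff_zpow_eq_one, orderOf_mk, ha]
  · rw [← hz.pow_eq_one_iff_dvd, ← hl]
    exact ⟨fun h => DFunLike.congr_fun h _, fun h => MonoidHom.ext fun x => by
      obtain ⟨k, rfl⟩ := gen x
      simp only [MonoidHom.pow_apply, map_zpow, h]; simp⟩
  · rw [show (⟨a ^ k, _⟩ : zpowers a) = ⟨a, mem_zpowers a⟩ ^ k from rfl, map_pow, hl]; simp

theorem sum_range_two_mul (N : ℕ) (F : ℕ → ℂ) : ∑ j ∈ Finset.range (2 * (N + 1)), F j =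
    F 0 + F (N + 1) + ∑ i : Fin N, (F (i + 1) + F (2 * (N + 1) - (i + 1))) := by
  rw [Finset.sum_add_distrib, Fin.sum_univ_eq_sum_range (fun i => F (i + 1)), Fin.sum_univ_eq_sum_range
    (fun i => F (2 * (N + 1) - (i + 1))), ← Finset.sum_range_reflect (fun i => F (2 * (N + 1) - (i + 1))), two_mul,
    Finset.sum_range_add, Finset.sum_range_succ', Finset.sum_range_succ']
  rw [Finset.sum_congr rfl (s₁ := Finset.range N) (f := fun j => F (N + 1 + (N + 1) - (N - 1 - j + 1)))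
    (g := fun j => F (N + 1 + (j + 1))) fun j hj => by rw [Finset.mem_range] at hj; congr 1; omega]
  ring

theorem di_principal (hM : IsPModular 2 M) (h : DI S n a b) (hS : IsSylowIn 2 S ⊤) {ζ : ℂ}
    (hζ : IsPrimitiveRoot ζ (2 ^ (n + 1))) : ∃ (χ₁ χ₂ χ₃ : IrrCharacter G) (χ' : Fin (2 ^ n - 1) → IrrCharacter G)
      (δ₁ δ₂ δ₃ : ℤ), (δ₁ = 1 ∨ δ₁ = -1) ∧ (δ₂ = 1 ∨ δ₂ = -1) ∧ (δ₃ = 1 ∨ δ₃ = -1) ∧ Function.Injective χ' ∧
      χ₁ ≠ triv G ∧ χ₂ ≠ triv G ∧ χ₃ ≠ triv G ∧ χ₁ ≠ χ₂ ∧ χ₁ ≠ χ₃ ∧ χ₂ ≠ χ₃ ∧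
      (∀ j, χ' j ≠ χ₁ ∧ χ' j ≠ χ₂ ∧ χ' j ≠ χ₃ ∧ χ' j ≠ triv G) ∧
      (∀ χ, χ ∈ principalBlock M G ↔ χ = triv G ∨ χ = χ₁ ∨ χ = χ₂ ∨ χ = χ₃ ∨ ∃ j, χ = χ' j) ∧
      (∀ l : ℕ, 0 < l → l < 2 ^ (n + 1) → χ₁.1 (a ^ l) = δ₁ ∧ χ₂.1 (a ^ l) = δ₂ * (-1) ^ (l + 1) ∧
        χ₃.1 (a ^ l) = δ₃ * (-1) ^ (l + 1) ∧ ∀ j : Fin (2 ^ n - 1), (χ' j).1 (a ^ l) =
          δ₁ * (ζ ^ (((j : ℕ) + 1) * l) + (ζ ^ (((j : ℕ) + 1) * l))⁻¹)) ∧
      ∀ ρ : G, Odd (orderOf ρ) → ∀ j, 1 + δ₁ * χ₁.1 ρ = -δ₂ * χ₂.1 ρ - δ₃ * χ₃.1 ρ ∧ 1 + δ₁ * χ₁.1 ρ = δ₁ * (χ' j).1 ρ := by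
  classical
  cases nonempty_fintype (zpowers a)
  obtain ⟨v, v0, v1, v2, v3, v4, v5⟩ := di_vec hM h hS
  obtain ⟨l, l1, l2, l3⟩ := exists_faithful h.ord hζ
  have hN : 2 ≤ 2 ^ n := Nat.le_self_pow (Nat.one_le_iff_ne_zero.1 h.pos) 2
  obtain ⟨N, hN'⟩ : ∃ N, 2 ^ n = N + 1 := ⟨2 ^ n - 1, by omega⟩
  have h4 : N ≠ 2 := fun e => by
    have : 2 ∣ 2 ^ n := dvd_pow_self 2 (Nat.one_le_iff_ne_zero.1 h.pos)
    omega
  rw [pow_succ' 2 n, hN'] at v5 l2 hζ ⊢
  rw [hN'] at hN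
  change ∃ (_ _ _ : IrrCharacter G) (_ : Fin N → IrrCharacter G), _
  have m1 : ∀ {j}, 0 < j → j < 2 * (N + 1) → l ^ j ≠ 1 := fun h1 h2 e => by have := Nat.le_of_dvd h1 ((l2 _).1 e); omega
  have m2 : ∀ {i j}, i < j → j < 2 * (N + 1) → l ^ i ≠ l ^ j := fun {i j} h1 h2 e => m1 (j := j - i) (by omega) (by omega)
    (MonoidHom.ext fun x => by
      have := DFunLike.congr_fun e x
      simp only [MonoidHom.pow_apply] at this ⊢
      rw [pow_sub _ h1.le, this, mul_inv_cancel]; rfl)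
  have m3 : ∀ {i j}, (l ^ i)⁻¹ = l ^ j ↔ 2 * (N + 1) ∣ i + j := by
    intro i j; rw [← l2]
    simp only [MonoidHom.ext_iff, MonoidHom.inv_apply, MonoidHom.pow_apply, MonoidHom.one_apply, pow_add,
      inv_eq_iff_mul_eq_one]
  have m4 : ∀ {i j}, 0 < i → i + j < 2 * (N + 1) → (l ^ i)⁻¹ ≠ l ^ j := fun h1 h2 e => by
    have := Nat.le_of_dvd (by omega) (m3.1 e); omega
  have dg : ∀ j, ∑ χ ∈ fs (principalBlock M G), v j χ * (charDegree χ.1 : ℤ) = 0 := fun j => by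
    have := v3 j 1 1 (by simp [pp])
    simp only [irr_one_eq, map_one, Units.val_one, inv_one] at this
    exact_mod_cast this.trans (show _ = (0 : ℂ) by norm_num)
  obtain ⟨x, hx, y, hy, z, hz, c, δ₁, δ₂, δ₃, a1, a2, a3, a4, a5, a6, a7, a8, a9, a10, a11, a12, a13⟩ := dih_comb
    (κ := Fin N) (u := fun j => v (l ^ (j + 1 : ℕ))) (w := v (l ^ (N + 1))) (d := fun χ => charDegree χ.1) ⟨0, by omega⟩
    (fun i j hij => by
      have := Fin.val_ne_of_ne hij
      by_contra! hc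
      have k : ∀ k < N, k = i ∨ k = j := fun k hk =>
        (em (⟨k, hk⟩ = i)).imp (congrArg Fin.val) fun e => congrArg Fin.val (hc _ e)
      have := i.2; have := j.2
      have := k 0 (by omega); have := k 1 (by omega); have := k 2 (by omega)
      omega)
    (mem_fs.2 (triv_mem_principal hM)) (fun χ => Int.natCast_pos.2 (Nat.pos_of_ne_zero (charDegree_ne_zero χ.2)))
    (by rw [charDegree_of_eq (n := 1) (by simp)]; rfl) (fun j => v1 _ (m1 (by omega) (by omega))) (v1 _ (m1 (by omega) (by omega)))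
    (fun j => by rw [v2 _ _ (m1 (by omega) (by omega)) (m1 (by omega) (by omega)), if_pos rfl,
      if_neg (m4 (by omega) (by omega))]; rfl)
    (fun i j hij => by
      rw [v2 _ _ (m1 (by omega) (by omega)) (m1 (by omega) (by omega)), if_neg (m4 (by omega) (by omega)), if_neg]
      · rfl
      rcases (Fin.val_ne_of_ne hij).lt_or_gt with e | e
      exacts [m2 (by omega) (by omega), (m2 (by omega) (by omega)).symm])
    (fun j => by rw [v2 _ _ (m1 (by omega) (by omega)) (m1 (by omega) (by omega)), if_neg (m2 (by omega) (by omega)),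
      if_neg (m4 (by omega) (by omega))]; rfl)
    (by rw [v2 _ _ (m1 (by omega) (by omega)) (m1 (by omega) (by omega)), if_pos rfl, if_pos (m3.2 (by rw [two_mul]))]; rfl)
    (fun j => dg _) (dg _)
  have val : ∀ χ k, 0 < k → k < 2 * (N + 1) → χ.1 (a ^ k) = -(v (l ^ (N + 1)) χ * (-1) ^ k +
      ∑ i : Fin N, v (l ^ (i + 1 : ℕ)) χ * (ζ ^ ((i + 1 : ℕ) * k) + (ζ ^ ((i + 1 : ℕ) * k))⁻¹)) := fun χ k h1 h2 => by
    have e1 : ζ ^ (N + 1) = -1 := (hζ.pow (by omega) (mul_comm _ _)).eq_neg_one_of_two_right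
    have e2 : v (l ^ 0) χ = 0 := Int.cast_injective (α := ℂ) (by rw [← v0]; simp [om1, classInner])
    refine (v5 l l1 χ ⟨a ^ k, pow_mem (mem_zpowers a) k⟩ fun e => pow_ne_one_of_lt_orderOf h1.ne' (h.ord ▸ pow_succ' 2 n ▸
      hN' ▸ h2) (congrArg Subtype.val e)).trans ?_
    rw [sum_range_two_mul, l3, e2, ← pow_mul ζ k (N + 1), mul_comm k, pow_mul, e1]
    simp only [Int.cast_zero, zero_mul, zero_add]
    congr 3 with i
    rw [← m3.2 (show _ ∣ (i + 1) + (2 * (N + 1) - (i + 1)) by rw [Nat.add_sub_cancel' (by omega)]), v4, ← pow_mul,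
      ← pow_mul, mul_comm k, mul_comm k, ← mul_add]
    congr 2
    refine eq_inv_of_mul_eq_one_right ?_
    rw [← pow_add, ← add_mul, Nat.add_sub_cancel' (by omega), pow_mul, hζ.pow_eq_one, one_pow]
  have odd : ∀ j ρ, Odd (orderOf ρ) → ∑ χ ∈ fs (principalBlock M G), v j χ * χ.1 ρ = 0 := fun j ρ hρ => by
    rw [v3 j ρ 1 (by rw [(pp_eq_one_iff Nat.prime_two).2 (by rwa [← even_iff_two_dvd, Nat.not_even_iff_odd])]; rfl)]
    norm_num
  refine ⟨x, y, z, c, δ₁, δ₂, δ₃, a1, a2, a3, a4, a5, a6, a7, a8, a9, a10, fun j => (a11 j).2, fun χ => ⟨fun hχ => ?_, ?_⟩,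
    fun k h1 h2 => ?_, fun ρ hρ j => ?_⟩
  · by_contra! hc
    refine H3.principal_ne_zero hM hχ (z := a ^ (N + 1)) (by
      simpa [hN'] using hS.not_dvd_relIndex_of_le (di_sylz h hS).le) ?_
    rw [val χ _ (by omega) (by omega)]
    simp [a12 _ _ (mem_fs.2 hχ), a13 _ (mem_fs.2 hχ), hc]
  · rintro (rfl | rfl | rfl | rfl | ⟨j, rfl⟩)
    exacts [triv_mem_principal hM, mem_fs.1 hx, mem_fs.1 hy, mem_fs.1 hz, mem_fs.1 (a11 j).1]
  · have e := val (triv G) k h1 h2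
    simp only [a12 _ _ (mem_fs.2 (triv_mem_principal hM)), a13 _ (mem_fs.2 (triv_mem_principal hM))] at e
    simp only [val _ k h1 h2, a12 _ _ hx, a13 _ hx, a12 _ _ hy, a13 _ hy, a12 _ _ hz, a13 _ hz, a12 _ _ (a11 _).1,
      a13 _ (a11 _).1]
    simp [a5, a6, a7, a8, a9, a10, a5.symm, a6.symm, a7.symm, a8.symm, a9.symm, a10.symm, a11, fun j => (a11 j).2.1.symm,
      fun j => (a11 j).2.2.1.symm, fun j => (a11 j).2.2.2.1.symm, fun j => (a11 j).2.2.2.2.symm, a4.eq_iff, pow_succ,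
      ← Finset.mul_sum] at e ⊢
    linear_combination δ₁ * e.symm
  · have e1 := odd (l ^ (j + 1 : ℕ)) ρ hρ
    have e2 := odd (l ^ (N + 1)) ρ hρ
    rw [Finset.sum_congr rfl fun χ hχ => by rw [a12 j χ hχ]] at e1
    rw [Finset.sum_congr rfl fun χ hχ => by rw [a13 χ hχ]] at e2
    simp [add_mul, Finset.sum_add_distrib, hx, hy, hz, a11, triv_mem_principal hM, mem_fs] at e1 e2
    exact ⟨by linear_combination e2, by linear_combination e1⟩

end H4
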