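import Cfsg.Agent.H4.Dih

/-!
# Counting pairs of involutions in a group with dihedral Sylow `2`-subgroups
-/

set_option autoImplicit false
set_option linter.unusedSectionVars false

namespace H4
open MonoidAlgebra Cfsg H1 Subgroup
open scoped Pointwise ComplexConjugate

variable {G : Type*} [Group G] [Finite G] {M : Ideal AlgInt} {S : Subgroup G} {n : ℕ} {a b u w s t y : G}

/-- `s` is an involution centralising `y` and different from it -/
def IC (y s : G) : Prop := orderOf s = 2 ∧ Commute y s ∧ s ≠ y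

theorem IC.conj (h : IC y s) (g : G) : IC (g * y * g⁻¹) (g * s * g⁻¹) :=
  ⟨(orderOf_conj _ _).trans h.1, h.2.1.conj g, by simpa using h.2.2⟩

theorem IC.mul (h : IC y s) (hy : orderOf y = 2) : IC y (y * s) :=
  ⟨two_mul_two hy h.1 h.2.2.symm h.2.1, (Commute.refl y).mul_right h.2.1, by simpa using ne_one_of_two h.1⟩

theorem di_out (h : DI S n a b) (hs : IC (a ^ 2 ^ n) s) {g : G} (hg : g ∈ C1 (a ^ 2 ^ n)) :
    g * s * g⁻¹ ∉ zpowers a := fun e => by
  have := hs.conj g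
  rw [← (mem_centralizer_singleton.1 hg).eq, mul_inv_cancel_right] at this
  exact this.2.2 (h.toMC.eq_z e this.1)

theorem di_pair (h : DI S n a b) (hS : IsSylowIn 2 S ⊤) (hs : IC (a ^ 2 ^ n) s) (ht : IC (a ^ 2 ^ n) t) :
    ∃ g ∈ C1 (a ^ 2 ^ n), g * pp 2 (s * t) * g⁻¹ ∈ zpowers a := by
  have h1 : s ∈ C1 (a ^ 2 ^ n) := mem_centralizer_singleton.2 hs.2.1
  have h2 : t ∈ C1 (a ^ 2 ^ n) := mem_centralizer_singleton.2 ht.2.1
  have h3 := pp_mem (p := 2) (mul_mem h1 h2)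
  have hp := isPElt_pp Nat.prime_two (s * t)
  obtain ⟨g, hg, h4, -⟩ := exists_conj_mem (di_sylz h hS) hp hp h3 h3 (.refl _)
  refine ⟨g, hg, by_contra fun h5 => ?_⟩
  have h6 : orderOf (pp 2 (s * t)) = 2 := (orderOf_conj _ g).symm.trans (h.out_two h4 h5)
  have h7 : IC (a ^ 2 ^ n) (pp 2 (s * t)) := ⟨h6, mem_centralizer_singleton.1 h3, fun e => h5 (by
    rw [e, ← (mem_centralizer_singleton.1 hg).eq, mul_inv_cancel_right]; exact (pow_mem (mem_zpowers a) (2 ^ n)))⟩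
  obtain ⟨k, hk⟩ : 2 ∣ orderOf (s * t) := h6 ▸ orderOf_dvd_of_mem_zpowers (pp_mem (mem_zpowers _))
  obtain ⟨e1, e2, e3⟩ := dih_even (mul_self_of_two hs.1) (mul_self_of_two ht.1) hk
  rw [← two_eq_of_cyclic (A := zpowers (s * t)) inferInstance (pp_mem (mem_zpowers _)) (pow_mem (mem_zpowers _) k) h6 e1]
    at e2 e3
  have key : ∀ {s}, IC (a ^ 2 ^ n) s → Commute s (pp 2 _) → pp 2 _ = s ∨ pp 2 _ = a ^ 2 ^ n * s := fun {r} hr hc => by
    have h1 : r ∈ C1 (a ^ 2 ^ n) := mem_centralizer_singleton.2 hr.2.1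
    obtain ⟨c, hc', k1, k2⟩ := exists_conj_mem (di_sylz h hS) (isPElt_two hr.1) hp h1 h3 hc
    have k3 := (hr.conj c).2
    have k4 := (h7.conj c).2
    rw [← (mem_centralizer_singleton.1 hc').eq, mul_inv_cancel_right] at k3 k4
    rcases (mem_sup_two h.toMC.oz (hr.conj c).1 k3.1).1 (h.toMC.cent_out k1 (di_out h hr hc') k2 (hc.conj c)) with
      e | e | e | e
    · exact absurd (by simpa using e) (ne_one_of_two h6)
    · exact absurd e k4.2
    · exact .inl (by simpa using e)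
    · refine .inr (mul_left_cancel (a := c) (mul_right_cancel (b := c⁻¹) ?_))
      rw [e, ← mul_assoc, ← mul_assoc, (mem_centralizer_singleton.1 hc').eq, ← mul_assoc]
  have comm : ∀ r, pp 2 (s * t) = r → Commute r (s * t) := fun r e => e ▸ commute_pp _
  have fin : Commute s t → pp 2 (s * t) = s * t := fun hc => pp_of_isPElt Nat.prime_two ((isPElt_iff Nat.prime_two).2
    ⟨1, by rw [pow_one, hc.mul_pow, sq, sq, mul_self_of_two hs.1, mul_self_of_two ht.1, one_mul]⟩)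
  rcases key hs e2 with e | e
  · have := fin (by simpa [Commute, SemiconjBy, mul_assoc] using comm _ e)
    exact ne_one_of_two ht.1 (by simpa [e] using this.symm)
  rcases key ht e3 with e' | e'
  · have := fin (by simpa [Commute, SemiconjBy, ← mul_assoc, eq_comm] using comm _ e')
    exact ne_one_of_two hs.1 (by simpa [e'] using this.symm)
  · rw [mul_left_cancel (e.symm.trans e'), mul_self_of_two ht.1] at h6
    simp [pp] at h6

theorem di_pair' (h : DI S n a b) (hS : IsSylowIn 2 S ⊤) {g : G} (hy : y = g * a ^ 2 ^ n * g⁻¹) (hs : IC y s) (ht : IC y t) :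
    (2 ∣ orderOf (s * t) → y ∈ zpowers (s * t)) ∧ ∃ w : zpowers a, IsConj w.1 (pp 2 (s * t)) ∧
      IsConj (a ^ 2 ^ n * w.1) (pp 2 (y * s * t)) := by
  have k : ∀ {s}, IC y s → IC (a ^ 2 ^ n) (g⁻¹ * s * g⁻¹⁻¹) := fun hs => by simpa [hy, mul_assoc] using hs.conj g⁻¹
  obtain ⟨c, hc, h1⟩ := di_pair h hS (k hs) (k ht)
  rw [conj_mul, pp_conj] at h1
  have e : c * g⁻¹ * y * (c * g⁻¹)⁻¹ = a ^ 2 ^ n := by
    conv_rhs => rw [← mul_inv_cancel_right (a ^ 2 ^ n) c, (mem_centralizer_singleton.1 hc).eq]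
    rw [hy]; group
  rw [show c * (g⁻¹ * pp 2 (s * t) * g⁻¹⁻¹) * c⁻¹ = c * g⁻¹ * pp 2 (s * t) * (c * g⁻¹)⁻¹ by group] at h1
  generalize c * g⁻¹ = x at e h1
  have oy : orderOf y = 2 := (orderOf_conj _ x).symm.trans (e ▸ h.toMC.oz)
  refine ⟨fun h2 => ?_, ⟨_, h1⟩, (isConj_iff.2 ⟨x, rfl⟩).symm, (isConj_iff.2 ⟨x, ?_⟩).symm⟩
  · obtain ⟨k, hk⟩ := isPElt_pp Nat.prime_two (s * t)
    obtain _ | k := k
    · exact absurd h2 ((pp_eq_one_iff Nat.prime_two).1 (by simpa using hk))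
    have h3 : orderOf (pp 2 (s * t) ^ 2 ^ k) = 2 := by
      rw [orderOf_pow' _ (by positivity), hk, Nat.gcd_eq_right (pow_dvd_pow 2 k.le_succ), pow_succ,
        Nat.mul_div_cancel_left _ (by positivity)]
    have h4 := h.toMC.eq_z (pow_mem h1 (2 ^ k)) (by rw [conj_pow, orderOf_conj, h3])
    rw [conj_pow, ← e, mul_left_inj, mul_right_inj] at h4
    exact h4 ▸ pow_mem (pp_mem (mem_zpowers _)) _
  · have hc : Commute y (s * t) := hs.2.1.mul_right ht.2.1
    rw [← e, conj_mul, mul_assoc y, pp, hc.mul_pow]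
    exact congrArg (fun r => x * (r * _) * x⁻¹) (pp_of_isPElt Nat.prime_two (isPElt_two oy))

open Classical in
theorem di_card [Fintype G] (h : DI S n a b) (hS : IsSylowIn 2 S ⊤) :
    (∑ s, if IC (a ^ 2 ^ n) s then (1 : ℂ) else 0) = Nat.card (C1 (a ^ 2 ^ n)) *
      (1 / Nat.card (C1 (a ^ 2 ^ n) ⊓ C1 b : Subgroup G) + 1 / Nat.card (C1 (a ^ 2 ^ n) ⊓ C1 (a * b) : Subgroup G)) := by
  have h1 := di_sylz h hS
  have k : ∀ t ∈ S, t ∉ zpowers a → ∀ s, (∃ y ∈ C1 (a ^ 2 ^ n), y * t * y⁻¹ = s) → IC (a ^ 2 ^ n) s := by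
    rintro t ht ht' _ ⟨y, hy, rfl⟩
    have := IC.conj ⟨h.out_two ht ht', (h.toMC.z_comm ht).symm, fun e => ht' (e ▸ (pow_mem (mem_zpowers a) (2 ^ n)))⟩ y
    rwa [← (mem_centralizer_singleton.1 hy).eq, mul_inv_cancel_right] at this
  have k1 : ∀ s, (if IC (a ^ 2 ^ n) s then (1 : ℂ) else 0) = (acls ℂ (C1 (a ^ 2 ^ n)) b).coeff s +
      (acls ℂ (C1 (a ^ 2 ^ n)) (a * b)).coeff s := fun s => by
    rw [coeff_acls, coeff_acls]
    split_ifs with e1 e2 e3 e4 e5 e6 e7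
    · obtain ⟨y, hy, rfl⟩ := e2
      obtain ⟨y', hy', e⟩ := e3
      have e' : y'⁻¹ * y * b * (y'⁻¹ * y)⁻¹ = a * b := by
        rw [show y'⁻¹ * y * b * (y'⁻¹ * y)⁻¹ = y'⁻¹ * (y * b * y⁻¹) * y' by group, ← e]; group
      obtain ⟨c, hc, e''⟩ := fusion_of_hasNPC ⟨h1.le, h1.isPGroup, h1.not_dvd⟩ (di_npc h hS) h.hb
        (mul_mem (inv_mem hy') hy) (e' ▸ h.toMC.ab_mem)
      exact absurd (e''.trans e') (h.toMC.not_conj_parity hc)
    · simp
    · simp
    · have hs : s ∈ C1 (a ^ 2 ^ n) := mem_centralizer_singleton.2 e1.2.1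
      obtain ⟨g, hg, h4, -⟩ := exists_conj_mem h1 (isPElt_two e1.1) (isPElt_two e1.1) hs hs (.refl _)
      rcases h.toMC.parity h4 (di_out h e1 hg) with e | e
      · obtain ⟨c, hc, e⟩ := h.toMC.conj_of_parity h.hb h.nb e
        exact (e2 ⟨g⁻¹ * c, mul_mem (inv_mem hg) (h1.le (h.toMC.le hc)), by
          rw [← inv_mul_cancel_left g s, ← inv_mul_cancel_right (g * s) g, ← e]; group⟩).elim
      · obtain ⟨c, hc, e⟩ := h.toMC.conj_of_parity h.toMC.ab_mem h.toMC.ab_out e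
        exact (e4 ⟨g⁻¹ * c, mul_mem (inv_mem hg) (h1.le (h.toMC.le hc)), by
          rw [← inv_mul_cancel_left g s, ← inv_mul_cancel_right (g * s) g, ← e]; group⟩).elim
    · exact absurd (k _ h.hb h.nb _ e5) e1
    · exact absurd (k _ h.hb h.nb _ e5) e1
    · exact absurd (k _ h.toMC.ab_mem h.toMC.ab_out _ e7) e1
    · simp
  simp only [k1, Finset.sum_add_distrib]
  have e1 := sum_acls (C1 (a ^ 2 ^ n)) b
  have e2 := sum_acls (C1 (a ^ 2 ^ n)) (a * b)
  have := H3.card_ne_zero' (C1 (a ^ 2 ^ n) ⊓ C1 b : Subgroup G)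
  have := H3.card_ne_zero' (C1 (a ^ 2 ^ n) ⊓ C1 (a * b) : Subgroup G)
  rw [mul_add, mul_one_div, mul_one_div]
  congr 1 <;> rw [eq_div_iff ‹_›, mul_comm] <;> assumption

open Classical in
theorem di_count [Fintype G] (h : DI S n a b) (hS : IsSylowIn 2 S ⊤) (hone : ∀ s, orderOf s = 2 → IsConj (a ^ 2 ^ n) s)
    {Θ : G → ℂ} {l : zpowers a →* ℂˣ} (hl : Function.Injective l)
    (hΘ : ∀ g (w : zpowers a), IsConj w.1 (pp 2 g) → Θ g = 2 - l w - (l w : ℂ)⁻¹) :
    ∑ i, Θ (i * a ^ 2 ^ n * i⁻¹ * a ^ 2 ^ n) =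
      2 * Nat.card (C1 (a ^ 2 ^ n)) * (∑ s, if IC (a ^ 2 ^ n) s then (1 : ℂ) else 0) ^ 2 := by
  set z := a ^ 2 ^ n with hz
  have oz : orderOf z = 2 := h.toMC.oz
  have lz : (l ⟨z, (pow_mem (mem_zpowers a) (2 ^ n))⟩ : ℂ) = -1 := by
    refine (mul_self_eq_one_iff.1 ?_).resolve_left fun e => ne_one_of_two oz
      (congrArg Subtype.val ((injective_iff_map_eq_one _).1 hl _ (Units.ext e)))
    rw [← Units.val_mul, ← map_mul, show (_ * _ : zpowers a) = 1 from Subtype.ext (mul_self_of_two oz)]; simp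
  have k0 : ∀ g, ¬ 2 ∣ orderOf g → Θ g = 0 := fun g hg => by
    rw [hΘ g 1 (by rw [(pp_eq_one_iff Nat.prime_two).2 hg]; rfl)]; norm_num
  have k1 : ∀ s, (acls ℂ ⊤ z).coeff s * Θ (s * z) = ∑ y, if IC z y then (if IC y s then Θ (s * z) else 0) else 0 := fun s => by
    have sym : ∀ {y}, IC z y → IC y z := fun e => ⟨oz, e.2.1.symm, e.2.2.symm⟩
    rw [coeff_acls]
    by_cases e : orderOf s = 2 ∧ 2 ∣ orderOf (s * z)
    · obtain ⟨k, hk⟩ := e.2
      obtain ⟨e1, e2, e3⟩ := dih_even (mul_self_of_two e.1) (mul_self_of_two oz) hk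
      have fin : Commute s z → (s * z) ^ k = s * z := fun hc => two_eq_of_cyclic (A := zpowers (s * z)) inferInstance
        (pow_mem (mem_zpowers _) k) (mem_zpowers _) e1 (orderOf_two_of (by
          rw [← sq, hc.mul_pow, sq, sq, mul_self_of_two e.1, mul_self_of_two oz, one_mul]) fun e' => by simp [e'] at e1)
      have c1 : Commute ((s * z) ^ k) (s * z) := Commute.pow_self _ _
      obtain ⟨x, hx⟩ := isConj_iff.1 (hone s e.1)
      rw [if_pos ⟨x, trivial, hx⟩, one_mul, Finset.sum_eq_single ((s * z) ^ k) (fun y _ hy => ?_) (by simp), if_pos, if_pos]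
      · refine ⟨e.1, e2.symm, fun e' => ?_⟩
        rw [← e'] at c1 fin
        exact ne_one_of_two oz (by simpa using (fin (by simpa [Commute, SemiconjBy, mul_assoc] using c1)).symm)
      · refine ⟨e1, e3, fun e' => ?_⟩
        rw [e'] at c1 fin
        exact ne_one_of_two e.1 (by simpa using (fin (by simpa [Commute, SemiconjBy, ← mul_assoc, eq_comm] using c1)).symm)
      · split_ifs with h1 h2 <;> try rfl
        obtain ⟨g, hg⟩ := isConj_iff.1 (hone y h1.1)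
        exact absurd (two_eq_of_cyclic inferInstance ((di_pair' h hS hg.symm h2 (sym h1)).1 e.2)
          (pow_mem (mem_zpowers _) k) h1.1 e1) hy
    · rw [Finset.sum_eq_zero fun y _ => ?_]
      · split_ifs with h1
        · obtain ⟨y, -, rfl⟩ := h1
          rw [k0 _ fun e' => e ⟨(orderOf_conj _ _).trans oz, e'⟩, mul_zero]
        · rw [zero_mul]
      · split_ifs with h1 h2 <;> try rfl
        exact k0 _ fun e' => e ⟨h2.1, e'⟩
  have k2 : ∀ y, IC z y → (∑ s, if IC y s then Θ (s * z) else 0) = 2 * ∑ s, if IC z s then (1 : ℂ) else 0 := fun y hy => by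
    obtain ⟨g, hg⟩ := isConj_iff.1 (hone y hy.1)
    have e1 : (∑ s, if IC y s then Θ (s * z) else 0) = ∑ s, if IC y s then Θ (y * s * z) else 0 := by
      rw [← sum_shift y]
      refine Finset.sum_congr rfl fun s _ => if_congr ⟨fun e => ?_, fun e => e.mul hy.1⟩ rfl rfl
      simpa [← mul_assoc, mul_self_of_two hy.1] using e.mul hy.1
    have e2 : (∑ s, if IC z s then (1 : ℂ) else 0) = ∑ s, if IC y s then (1 : ℂ) else 0 :=
      Fintype.sum_equiv (MulAut.conj g).toEquiv _ _ fun s => if_congr ⟨fun e => hg ▸ e.conj g, fun e => by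
        simpa [← hg, mul_assoc] using e.conj g⁻¹⟩ rfl rfl
    refine mul_left_cancel₀ (two_ne_zero' ℂ) ?_
    rw [two_mul]
    nth_rw 2 [e1]
    rw [e2, ← Finset.sum_add_distrib, ← mul_assoc, Finset.mul_sum]
    refine Finset.sum_congr rfl fun s _ => ?_
    split_ifs with hs
    · obtain ⟨w, h1, h2⟩ := (di_pair' h hS hg.symm hs ⟨oz, hy.2.1.symm, hy.2.2.symm⟩).2
      rw [hΘ _ w h1, hΘ _ (⟨z, (pow_mem (mem_zpowers a) (2 ^ n))⟩ * w) h2, map_mul, Units.val_mul, lz]; ring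
    · simp
  have := Fintype.ofFinite (⊤ : Subgroup G)
  have k3 := sum_conj_eq ⊤ z fun s => Θ (s * z)
  rw [(Fintype.sum_equiv Subgroup.topEquiv.toEquiv _ (fun i => Θ (i * z * i⁻¹ * z)) fun _ => rfl).symm.trans k3, top_inf_eq]
  simp only [k1]
  rw [Finset.sum_comm, Finset.sum_congr rfl (g := fun y => (if IC z y then 1 else 0) * (2 * ∑ s, if IC z s then (1 : ℂ) else 0))
    fun y _ => by split_ifs with e; exacts [by rw [k2 y e, one_mul], by simp], ← Finset.sum_mul]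
  ring

theorem di_order (hM : IsPModular 2 M) (h : DI S n a b) (hS : IsSylowIn 2 S ⊤)
    (hone : ∀ s, orderOf s = 2 → IsConj (a ^ 2 ^ n) s) {χ : IrrCharacter G} (hχ : χ ∈ principalBlock M G) (h1 : χ ≠ triv G)
    {δ : ℤ} (hδ : δ = 1 ∨ δ = -1) (hv : ∀ l : ℕ, 0 < l → l < 2 ^ (n + 1) → χ.1 (a ^ l) = δ) :
    χ.1 1 + δ ≠ 0 ∧ Nat.card G * (χ.1 1 - δ) ^ 2 = 2 * χ.1 1 * (χ.1 1 + δ) * Nat.card (C1 (a ^ 2 ^ n)) ^ 3 *
      (1 / Nat.card (C1 (a ^ 2 ^ n) ⊓ C1 b : Subgroup G) + 1 / Nat.card (C1 (a ^ 2 ^ n) ⊓ C1 (a * b) : Subgroup G)) ^ 2 := by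
  classical
  cases nonempty_fintype G
  cases nonempty_fintype (zpowers a)
  obtain ⟨v, v0, v1, v2, v3, -⟩ := di_vec hM h hS
  obtain ⟨l, l1, l2, l3⟩ := exists_faithful h.ord (Complex.isPrimitiveRoot_exp _ (by positivity))
  have hN : 2 ≤ 2 ^ n := Nat.le_self_pow (Nat.one_le_iff_ne_zero.1 h.pos) 2
  have n2 : l ^ 2 ≠ 1 := fun e => by have := Nat.le_of_dvd two_pos ((l2 _).1 e); omega
  have n1 : l ≠ 1 := fun e => n2 (MonoidHom.ext fun x => by simp [e])
  have n3 : l⁻¹ ≠ l := fun e => n2 (MonoidHom.ext fun x => by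
    simpa [sq, inv_eq_iff_mul_eq_one] using DFunLike.congr_fun e x)
  have e1 : v l χ = δ := Int.cast_injective (α := ℂ) (by
    rw [← v0, ← mul_one (δ : ℂ), ← Int.cast_one, ← v1 l n1, ← v0, classInner, classInner, mul_left_comm (δ : ℂ),
      Finset.mul_sum _ _ (δ : ℂ)]
    refine congrArg _ (Finset.sum_congr rfl fun ⟨u, hu⟩ _ => ?_)
    obtain ⟨k, hk, rfl⟩ := Finset.mem_image.1 (mem_zpowers_iff_mem_range_orderOf.1 hu)
    obtain rfl | h0 := k.eq_zero_or_pos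
    · simp [om1, show (⟨1, _⟩ : zpowers a) = 1 from rfl]
    · rw [hv k h0 (h.ord ▸ Finset.mem_range.1 hk)]; simp [mul_comm])
  obtain ⟨ψ, h2, -, -, h3, h4⟩ := norm_three' (mem_fs.2 (triv_mem_principal hM)) (mem_fs.2 hχ) h1 (v1 l n1) (e1 ▸ hδ)
    (by rw [v2 l l n1 n1, if_pos rfl, if_neg n3]; rfl)
  have k : ∀ g, ∑ χ ∈ fs (principalBlock M G), v l χ * χ.1 g = 1 + δ * χ.1 g + v l ψ * ψ.1 g := fun g => by
    rw [Finset.sum_congr rfl fun χ hχ => by rw [h4 χ hχ]]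
    simp [add_mul, Finset.sum_add_distrib, hχ, h2, triv_mem_principal hM, mem_fs, e1, mem_fs.1 h2]
  have e2 := di_count h hS hone l1 (v3 l)
  rw [di_card h hS] at e2
  have e3 := v3 l 1 1 (by simp [pp])
  have e4 := v3 l _ ⟨_, pow_mem (mem_zpowers a) (2 ^ n)⟩ (by rw [pp_of_isPElt Nat.prime_two (isPElt_two h.toMC.oz)])
  have e5 := hv (2 ^ n) (by omega) (by omega)
  rw [l3, ((Complex.isPrimitiveRoot_exp _ (by positivity)).pow (by positivity) (pow_succ 2 n)).eq_neg_one_of_two_right,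
    k, e5] at e4
  simp only [k, Finset.sum_add_distrib, ← Finset.mul_sum, Finset.sum_const, Finset.card_univ, nsmul_eq_mul, mul_one,
    ← Nat.card_eq_fintype_card, map_one, Units.val_one, inv_one] at e2 e3
  have e6 := sum_conj_mul χ.2 (a ^ 2 ^ n) (a ^ 2 ^ n)
  have e7 := sum_conj_mul ψ.2 (a ^ 2 ^ n) (a ^ 2 ^ n)
  have e8 := H3.irr_one_ne_zero ψ.2
  rw [e5] at e6
  have d2 : (δ : ℂ) ^ 2 = 1 := by rcases hδ with rfl | rfl <;> simp
  have d3 : (v l ψ : ℂ) ^ 2 = 1 := by rcases h3 with e | e <;> simp [e]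
  generalize (v l ψ : ℂ) = ε, (δ : ℂ) = d, χ.1 1 = x, ψ.1 1 = y, ψ.1 (a ^ 2 ^ n) = w at *
  have f1 : y = -ε * (1 + d * x) := by linear_combination ε * e3 - y * d3
  have f2 : w = 2 * ε := by linear_combination ε * e4 - w * d3 - ε * d2
  subst f1 f2
  refine ⟨fun e => e8 (by linear_combination -ε * d * e + ε * d2), ?_⟩
  rcases mul_self_eq_one_iff.1 ((sq d).symm.trans d2) with rfl | rfl
  · linear_combination x * (x + 1) * e2 - (x + 1) * e6 + x * e7 + 4 * Nat.card G * x * d3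
  · linear_combination x * (x - 1) * e2 + (x - 1) * e6 - x * e7 - 4 * Nat.card G * x * d3

end H4
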