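import Cfsg.Agent.H4.GLU
import Cfsg.Agent.H5.SL

/-! Unipotent characters of `GL_n`, II: Jacobi–Trudi and orthonormality. -/

set_option autoImplicit false
set_option linter.unusedSectionVars false

namespace H4.GLU

open Cfsg H3 Matrix Finset MvPolynomial
open scoped MatrixGroups

variable {n : ℕ}

variable (n) in
noncomputable def HH : PowerSeries (MvPolynomial (Fin n) ℂ) :=
  ∏ i, PowerSeries.mk fun m => X i ^ m

/-- the Jacobi–Trudi matrix -/
noncomputable def JT (l : Fin n → ℕ) : Matrix (Fin n) (Fin n) (MvPolynomial (Fin n) ℂ) :=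
  of fun k j => if k.1 ≤ l j then PowerSeries.coeff (l j - k) (HH n) else 0

noncomputable def alt (l : Fin n → ℕ) : Matrix (Fin n) (Fin n) (MvPolynomial (Fin n) ℂ) :=
  of fun i j => X i ^ l j

theorem exists_fac : ∃ c : Matrix (Fin n) (Fin n) _, ∀ l, alt l = c * JT l := by
  let p : Fin n → Polynomial (MvPolynomial (Fin n) ℂ) := fun i =>
    ∏ l ∈ univ.erase i, (1 - Polynomial.C (X l) * Polynomial.X)
  have h1 : ∀ i, (p i).natDegree < n := fun i => by
    refine (Polynomial.natDegree_prod_le _ _).trans_lt ((sum_le_card_nsmul _ _ 1 fun l _ => by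
      compute_degree).trans_lt ?_)
    have := i.pos
    simp; omega
  have h2 : ∀ i, (p i : PowerSeries _) * HH n = PowerSeries.mk fun m => X i ^ m := fun i => by
    rw [HH, ← mul_prod_erase _ _ (mem_univ i), mul_left_comm, ← Polynomial.coeToPowerSeries.ringHom_apply,
      map_prod, ← prod_mul_distrib, prod_eq_one, mul_one]
    intro l _
    ext1 m
    cases m <;> simp [sub_mul, mul_assoc, PowerSeries.coeff_succ_X_mul, pow_succ', PowerSeries.coeff_one]
  refine ⟨of fun i k => (p i).coeff k, fun l => ?_⟩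
  ext1 i j
  have := congrArg (PowerSeries.coeff (l j)) (h2 i)
  rw [PowerSeries.coeff_mk, (p i).as_sum_range_C_mul_X_pow' (h1 i),
    ← Polynomial.coeToPowerSeries.ringHom_apply, map_sum, sum_mul, map_sum,
    sum_range] at this
  simp only [alt, of_apply, ← this, mul_apply, JT]
  simp [mul_assoc, PowerSeries.coeff_X_pow_mul']

theorem jacobi_trudi (l : Fin n → ℕ) : (alt l).det = (alt fun i : Fin n => i.1).det * (JT l).det := by
  obtain ⟨c, hc⟩ := exists_fac (n := n)
  have : (JT fun i : Fin n => i.1).det = 1 := by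
    rw [det_of_isUpperTriangular (M := JT fun i : Fin n => i.1) fun i j h => if_neg (not_le.2 h)]
    simp [JT, HH]
  rw [hc, hc, det_mul, det_mul, this, mul_one]

/-- finitely supported version -/
noncomputable abbrev fs (l : Fin n → ℕ) : Fin n →₀ ℕ := Finsupp.equivFunOnFinite.symm l

theorem prod_pow (l : Fin n → ℕ) : ∏ i, (X i : MvPolynomial (Fin n) ℂ) ^ l i = monomial (fs l) 1 := by
  rw [monomial_eq, Finsupp.prod_fintype _ _ (by simp)]; simp

theorem det_alt (l : Fin n → ℕ) : (alt l).det =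
    ∑ κ : Equiv.Perm (Fin n), (Equiv.Perm.sign κ : ℤ) • monomial (fs (l ∘ κ)) 1 := by
  rw [← det_transpose, det_apply]
  simp [alt, ← prod_pow, Units.smul_def]

theorem coeff_cont (α β : Fin n → ℕ) :
    coeff (fs α) (∏ j, PowerSeries.coeff (β j) (HH n)) = (cont α β).card := by
  simp only [HH, PowerSeries.coeff_prod, PowerSeries.coeff_mk, prod_univ_sum, coeff_sum, cont,
    card_filter, Nat.cast_sum]
  refine sum_congr rfl fun M _ => ?_
  rw [Finset.prod_comm]
  simp only [prod_pow_eq_pow_sum, prod_pow, coeff_monomial]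
  simp [_root_.funext_iff]

theorem sum_sub {l : Fin n → ℕ} (hl : ∑ i, l i = n) {κ : Equiv.Perm (Fin n)}
    (h : ∀ i, (κ i).1 ≤ l i + i) : ∑ i, (l i + i - κ i) = n := by
  rw [sum_tsub_distrib _ fun i _ => h i, sum_add_distrib, Equiv.sum_comp κ Fin.val, hl]; simp

variable {F : Type*} [Field F]

theorem uc_eq (ν : Fin n → ℕ) : unipotentCharacterGL n F ν = ∑ κ : Equiv.Perm (Fin n),
    (if ∀ i, (κ i).1 ≤ ν i + i then (Equiv.Perm.sign κ : ℤ) else 0 : ℤ) •
      fixedPointCharacter (parabolicGL n F fun i => ν i + i - κ i) := by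
  ext g; simp [unipotentCharacterGL, ite_apply]

variable [Fintype (GL (Fin n) F)]

theorem gen_uc (ν : Fin n → ℕ) : IsGeneralizedCharacter _ (unipotentCharacterGL n F ν) :=
  uc_eq (F := F) ν ▸ gen_sum _ _ fun κ _ => gen_zsmul (by
    unfold fixedPointCharacter; rw [← indFun_one_eq_perm]; exact gen_indFun _ gen_one) _

theorem inner_uc {ν ν' : Fin n → ℕ} (h1 : Monotone ν) (hν : ∑ i, ν i = n) (h2 : Monotone ν')
    (hν' : ∑ i, ν' i = n) : classInner (unipotentCharacterGL n F ν) (unipotentCharacterGL n F ν') =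
      if ν = ν' then 1 else 0 := by
  have k := congrArg (coeff (fs fun i => ν' i + i)) (jacobi_trudi fun i => ν i + i)
  have hs : ∀ {ν : Fin n → ℕ}, Monotone ν → StrictMono fun i => ν i + i.1 := fun h i j e =>
    add_lt_add_of_le_of_lt (h e.le) e
  rw [det_alt, det_alt, coeff_sum, sum_eq_single 1 (fun κ _ hκ => ?_) (by simp), sum_mul,
    coeff_sum] at k
  · refine Eq.trans ?_ (k.symm.trans ?_)
    · rw [uc_eq, uc_eq]
      simp only [← Int.cast_smul_eq_zsmul ℂ, inner_sum_left, inner_sum_right, H3.inner_smul_left,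
        H3.inner_smul_right, mul_sum]
      refine sum_congr rfl fun κ' _ => ?_
      rw [smul_mul_assoc, coeff_smul, coeff_monomial_mul', det_apply, coeff_sum]
      by_cases e' : ∀ i, (κ' i).1 ≤ ν' i + i
      swap
      · rw [if_neg e', if_neg (by exact e')]; simp
      rw [if_pos e', if_pos (by exact e'), one_mul, smul_sum]
      refine sum_congr rfl fun κ _ => ?_
      simp only [JT, of_apply, prod_ite_zero, mem_univ, true_implies]
      split_ifs with e
      · rw [inner_par (sum_sub hν' e') (sum_sub hν e), ← coeff_cont, Units.smul_def, coeff_smul]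
        simp [mul_left_comm]; congr 1; ext; simp
      · simp
    · simp [coeff_monomial, _root_.funext_iff]
  · rw [coeff_smul, coeff_monomial, if_neg fun e => hκ ?_, smul_zero]
    have e' : (fun i => ν i + i.1) ∘ κ = fun i => ν' i + i := by simpa using e
    have : StrictMono κ := fun i j h => (hs h1).lt_iff_lt.1 ((e' ▸ hs h2 : StrictMono (_ ∘ κ)) h)
    exact Equiv.ext fun i => congrArg (· i) (Subsingleton.elim
      (this.orderIsoOfSurjective κ κ.surjective) (OrderIso.refl _))

end H4.GLU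

namespace H4.GLU

open Cfsg H3 Matrix Finset
open scoped MatrixGroups

variable {n : ℕ} {F : Type*} [Field F] [Fintype F]

/-- `q`-factorial -/
def qf (q m : ℕ) : ℕ := ∏ j ∈ range m, ∑ l ∈ range (j + 1), q ^ l

theorem card_GL_qf {ι : Type*} [Fintype ι] [DecidableEq ι] {m : ℕ} (h : Fintype.card ι = m) :
    Nat.card (GL ι F) = Fintype.card F ^ (∑ i ∈ range m, i) * (Fintype.card F - 1) ^ m *
      qf (Fintype.card F) m := by
  have hq : 1 ≤ Fintype.card F := Fintype.card_pos
  rw [H5.card_GL, h, ← prod_range fun i => Fintype.card F ^ m - Fintype.card F ^ i,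
    ← prod_pow_eq_pow_sum, qf, ← prod_range_reflect (fun j => ∑ l ∈ range (j + 1), _),
    show (Fintype.card F - 1) ^ m = ∏ _i ∈ range m, (Fintype.card F - 1) by simp,
    ← prod_mul_distrib, ← prod_mul_distrib]
  refine prod_congr rfl fun i hi => ?_
  have := mem_range.1 hi
  rw [mul_assoc, mul_comm (_ - 1), geom_sum_mul_of_one_le hq, mul_tsub, ← pow_add, mul_one]
  congr 2; omega

theorem card_par {μ : Fin n → ℕ} (h : ∑ i, μ i = n) : ∃ e,
    e + ∑ s, ∑ i ∈ range (μ s), i = ∑ i ∈ range n, i ∧ Nat.card (parabolicGL n F μ) =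
      Fintype.card F ^ e * ∏ s, (Fintype.card F ^ (∑ i ∈ range (μ s), i) *
        (Fintype.card F - 1) ^ μ s * qf (Fintype.card F) (μ s)) := by
  classical
  obtain ⟨a, ha, ha'⟩ := exists_lab h
  have hP : ∀ g, g ∈ parabolicGL n F μ ↔ g.1.BlockTriangular a := fun g => by
    simp only [BlockTriangular, Fin.lt_def, ← ha]; rfl
  refine ⟨#{p : Fin n × Fin n | a p.1 < a p.2}, ?_, ?_⟩
  · have h1 := card_filter_add_card_filter_not (s := univ) fun p : Fin n × Fin n => a p.1 < a p.2
    have h2 : #{p : Fin n × Fin n | a p.1 = a p.2} = ∑ s, μ s * μ s := by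
      rw [card_eq_sum_card_fiberwise (f := fun p => a p.1) (t := univ) (by simp)]
      refine sum_congr rfl fun s _ => ?_
      rw [← ha', ← card_product]
      congr 1; ext p; simp; grind
    rw [show (univ.filter fun p : Fin n × Fin n => ¬ a p.1 < a p.2) =
      (univ.filter fun p => a p.1 = a p.2) ∪ univ.filter fun p => a p.2 < a p.1 by
        ext; simp; grind, card_union_of_disjoint
        (disjoint_filter.2 fun p _ e => by simp [e]), h2, card_equiv (Equiv.prodComm _ _)
          (s := univ.filter fun p => a p.2 < a p.1) (t := univ.filter fun p => a p.1 < a p.2) (by simp)] at h1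
    have h3 : ∀ m, (∑ i ∈ range m, i) * 2 + m = m * m := fun m => by
      rw [sum_range_id_mul_two]; cases m <;> simp [mul_add]
    simp only [← h3, sum_add_distrib, ← sum_mul, h, card_univ, Fintype.card_prod,
      Fintype.card_fin] at h1
    omega
  have hd : ∀ g : parabolicGL n F μ, ∀ s, (g.1.1.toSquareBlock a s).det ≠ 0 := fun g s =>
    prod_ne_zero_iff.1 (((hP _).1 g.2).det_fintype ▸ g.1.det_ne_zero) s (mem_univ _)
  rw [Nat.card_eq_of_bijective (fun g : parabolicGL n F μ =>
    ((fun p : {p : Fin n × Fin n // a p.1 < a p.2} => g.1.1 p.1.1 p.1.2), fun s =>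
      GeneralLinearGroup.mkOfDetNeZero _ (hd g s))) ⟨fun g g' e => ?_, fun ⟨v, u⟩ => ?_⟩,
    Nat.card_prod, Nat.card_fun, Nat.card_pi, Nat.card_eq_fintype_card (α := F),
    Nat.card_eq_fintype_card (α := Subtype _),
    Fintype.card_subtype, prod_congr rfl fun s _ => card_GL_qf ((Fintype.card_subtype _).trans (ha' s))]
  · refine Subtype.ext (Units.ext (Matrix.ext fun i j => ?_))
    rcases lt_trichotomy (a i) (a j) with k | k | k
    · exact congrFun (congrArg Prod.fst e) ⟨(i, j), k⟩
    · exact congrArg (fun x => (x.2 (a j)).1 ⟨i, k⟩ ⟨j, rfl⟩) e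
    · rw [(hP _).1 g.2 k, (hP _).1 g'.2 k]
  · let M : Matrix (Fin n) (Fin n) F := of fun i j => if h : a i = a j then
      (u (a j)).1 ⟨i, h⟩ ⟨j, rfl⟩ else if h : a i < a j then v ⟨(i, j), h⟩ else 0
    have h1 : M.BlockTriangular a := fun i j k => by simp [M, k.ne', k.not_gt]
    have h2 : ∀ s, M.toSquareBlock a s = u s := fun s => Matrix.ext fun ⟨i, hi⟩ ⟨j, hj⟩ => by
      subst hj; simp [M, hi, toSquareBlock_def]
    refine ⟨⟨GeneralLinearGroup.mkOfDetNeZero M ?_, (hP _).2 h1⟩, Prod.ext (funext fun p => ?_)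
      (funext fun s => Units.ext (h2 s))⟩
    · rw [h1.det_fintype]; exact prod_ne_zero_iff.2 fun s _ => h2 s ▸ (u s).det_ne_zero
    · show M _ _ = _
      simp [M, p.2, p.2.ne]

theorem index_par {μ : Fin n → ℕ} (h : ∑ i, μ i = n) :
    Nat.card (GL (Fin n) F ⧸ parabolicGL n F μ) * ∏ i, qf (Fintype.card F) (μ i) =
      qf (Fintype.card F) n := by
  obtain ⟨e, h1, h2⟩ := card_par (F := F) h
  have := (parabolicGL n F μ).card_eq_card_quotient_mul_card_subgroup
  rw [h2, card_GL_qf (Fintype.card_fin n), prod_mul_distrib, prod_mul_distrib, prod_pow_eq_pow_sum,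
    prod_pow_eq_pow_sum, h, ← h1] at this
  have hq := Fintype.one_lt_card (α := F)
  refine Nat.eq_of_mul_eq_mul_left (Nat.mul_pos (Nat.pow_pos (by omega)) (Nat.pow_pos (by omega)))
    (Eq.trans ?_ this.symm)
  ring

theorem qf_pos {q : ℕ} (m : ℕ) : 0 < qf q m :=
  prod_pos fun j _ => by rw [sum_range_succ']; simp

theorem qf_sub (q : ℕ) {k m : ℕ} (h : k ≤ m) : (qf q m : ℂ) * q ^ ∑ r ∈ range k, r =
    qf q (m - k) * ∏ r ∈ range k, (((∑ l ∈ range m, q ^ l : ℕ) : ℂ) - (∑ l ∈ range r, q ^ l : ℕ)) := by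
  induction k with
  | zero => simp
  | succ k ih =>
    obtain ⟨d, rfl⟩ := Nat.exists_eq_add_of_le h
    rw [sum_range_succ, pow_add, ← mul_assoc, ih (by omega), prod_range_succ, Nat.add_sub_cancel_left,
      show k + 1 + d - k = d + 1 by omega, qf, prod_range_succ, ← qf,
      show k + 1 + d = k + (d + 1) by ring, sum_range_add _ k]
    simp only [pow_add, ← mul_sum]
    push_cast; ring

theorem fix_one {G : Type*} [Group G] (H : Subgroup G) :
    fixedPointCharacter H 1 = Nat.card (G ⧸ H) := by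
  simp [fixedPointCharacter]

theorem deg_uc {ν : Fin n → ℕ} (hν : ∑ i, ν i = n) : unipotentCharacterGL n F ν 1 *
    (Fintype.card F : ℂ) ^ (∑ k ∈ range n, ∑ r ∈ range k, r) *
      ∏ i : Fin n, (qf (Fintype.card F) (ν i + i) : ℂ) = qf (Fintype.card F) n * ∏ i, ∏ j ∈ Ioi i,
        (((∑ l ∈ range (ν j + j), Fintype.card F ^ l : ℕ) : ℂ) -
          (∑ l ∈ range (ν i + i), Fintype.card F ^ l : ℕ)) := by
  rw [← det_vandermonde, det_eval_matrixOfPolynomials_eq_det_vandermonde _ (fun k => ∏ r ∈ range k,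
    (Polynomial.X - Polynomial.C ((∑ l ∈ range r, Fintype.card F ^ l : ℕ) : ℂ)))
    (fun k => by rw [Polynomial.natDegree_prod_of_monic _ _ fun _ _ => Polynomial.monic_X_sub_C _]; simp only [Polynomial.natDegree_X_sub_C]; simp)
    fun k => Polynomial.monic_prod_X_sub_C _ _, ← det_transpose, det_apply', unipotentCharacterGL,
    sum_mul, sum_mul, mul_sum]
  refine sum_congr rfl fun κ _ => ?_
  simp only [transpose_apply, of_apply, Polynomial.eval_prod, Polynomial.eval_sub, Polynomial.eval_X,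
    Polynomial.eval_C]
  split_ifs with e
  · rw [fix_one, ← index_par (F := F) (sum_sub hν e), sum_range, ← Equiv.sum_comp κ,
      ← prod_pow_eq_pow_sum, mul_assoc, ← prod_mul_distrib,
      prod_congr rfl fun i _ => (mul_comm _ _).trans (qf_sub _ (e i)), prod_mul_distrib]
    push_cast; ring
  · obtain ⟨i, hi⟩ := not_forall.1 e
    rw [zero_mul, zero_mul, prod_eq_zero (mem_univ i), mul_zero, mul_zero]
    exact prod_eq_zero (mem_range.2 (not_le.1 hi)) (sub_self _)

theorem irr_uc {ν : Fin n → ℕ} (h1 : Monotone ν) (hν : ∑ i, ν i = n) :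
    IsIrrCharacter _ (unipotentCharacterGL n F ν) := by
  classical
  refine isIrr_of_gen_norm_one (gen_uc ν) (by rw [inner_uc h1 hν h1 hν, if_pos rfl]) ?_
  have k := deg_uc (F := F) hν
  rw [prod_congr rfl fun i _ => prod_congr rfl fun j hj => (Nat.cast_sub (sum_le_sum_of_subset
    (range_mono (add_le_add (h1 (mem_Ioi.1 hj).le) (mem_Ioi.1 hj).le)))).symm, mul_assoc] at k
  norm_cast at k
  rw [eq_div_of_mul_eq (Nat.cast_ne_zero.2 (Nat.mul_pos (Nat.pow_pos Fintype.card_pos)
    (prod_pos fun i _ => qf_pos _)).ne') k, Complex.div_natCast_re, Complex.natCast_re]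
  positivity

end H4.GLU
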