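import Cfsg.Agent.H4.Frob3
import Cfsg.Agent.S4721

/-!
# Abelian Sylow 2-subgroups with a Frobenius automizer of order three
-/

set_option autoImplicit false
set_option linter.unusedSectionVars false

namespace H4
open MonoidAlgebra Cfsg H1
open scoped Pointwise ComplexConjugate

theorem homo_descent (n : ℕ) : ∀ k u v : ℤ, u.natAbs + v.natAbs ≤ n → u ^ 2 + v ^ 2 - u * v + k * (u * v * (u + v)) = 0 →
    u = 0 := by
  induction n with
  | zero => intro k u v h _; omega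
  | succ n ih =>
    intro k u v h e
    have h2 : u % 2 = 0 ∧ v % 2 = 0 := by
      have := congrArg (Int.cast : ℤ → ZMod 2) e
      rw [← Int.dvd_iff_emod_eq_zero, ← Int.dvd_iff_emod_eq_zero]
      have k1 := ZMod.intCast_zmod_eq_zero_iff_dvd u 2
      have k2 := ZMod.intCast_zmod_eq_zero_iff_dvd v 2
      push_cast at this k1 k2
      rw [← k1, ← k2]
      revert this
      generalize (u : ZMod 2) = a; generalize (v : ZMod 2) = b; generalize (k : ZMod 2) = c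
      revert a b c; decide
    obtain ⟨a, rfl⟩ : ∃ a, u = 2 * a := ⟨u / 2, by omega⟩
    obtain ⟨b, rfl⟩ : ∃ a, v = 2 * a := ⟨v / 2, by omega⟩
    by_cases h0 : a = 0
    · simp [h0]
    · rw [ih (2 * k) a b (by omega) (by nlinarith), mul_zero]

theorem homo_arith {q u v : ℤ} (hq : q ≠ 0) (h2 : 2 ∣ q) {z : ℂ} (hz : z ≠ 0) (hX : (1 + q * u : ℂ) ≠ 0) (hY : (1 + q * v : ℂ) ≠ 0)
    (h1 : 1 + (1 + q * u) + (1 + q * v) = z) (h3 : 1 + 1 / (1 + q * u : ℂ) + 1 / (1 + q * v) = 9 / z) : u = 0 := by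
  obtain ⟨k, rfl⟩ := h2
  refine homo_descent _ k u v le_rfl (mul_left_cancel₀ (mul_ne_zero two_ne_zero (pow_ne_zero 2 hq)) ?_)
  apply Int.cast_injective (α := ℂ)
  subst h1
  field_simp at h3
  push_cast at h3 ⊢
  linear_combination h3

variable {G : Type*} [Group G] [Finite G]

theorem dvd_of_const {θ : G → ℂ} (hθ : IsGeneralizedCharacter G θ) (D : Subgroup G) {c n : ℤ}
    (h : ∀ t : D, t ≠ 1 → θ t = c) (hn : θ 1 = n) : (Nat.card D : ℤ) ∣ n - c := by
  obtain ⟨m, hm⟩ := H3.card_dvd_of_vanish (H3.gen_sub (H3.gen_restrict hθ D) (H3.gen_zsmul H3.gen_one c))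
    fun s hs => by simp [h s hs]
  exact ⟨m, Int.cast_injective (α := ℂ) (by simpa [hn] using hm)⟩

theorem homo_lin (P : Sylow 2 G) (hab : IsMulCommutative P) (hCN : (CS (P : Subgroup G)).relIndex (NS P) = 3)
    (hm2 : 3 + 1 < Nat.card P) (hfrob : ∀ y ∈ (P : Subgroup G), y ≠ 1 → C1 y ⊓ NS P = CS P) :
    ∃ K : Subgroup G, K.Normal ∧ K ≠ ⊤ ∧ (P : Subgroup G) ≤ K := by
  classical
  obtain ⟨M, hM⟩ := exists_isPModular Nat.prime_two
  have := Fintype.ofFinite G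
  have := Fintype.ofFinite P
  have := Finite.one_lt_card_iff_nontrivial.1 (show 1 < Nat.card P by omega)
  obtain ⟨Θ, x, h1, h2, h3⟩ := frob_exc hM hab hfrob
  have hF := fb_frob hM hab hfrob
  have h0 := (card_ga le_rfl).trans hCN
  have h5 := h1.toFr.card_OS
  rw [h0] at h5
  have hr : (OS (ga (P : Subgroup G) (NS P))).card ≠ 1 := fun e => by rw [e] at h5; omega
  obtain ⟨ζ, a, δ, h4, h6, h7⟩ := h1.dade (by
    obtain ⟨ζ, a, d, δ, h4⟩ := h1.exc ⟨_, triv_mem_principal hM⟩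
    have k1 := hF.free.count hM hF.hB hF.hm hF.ab
    have k2 := h4.card
    have k3 := rank_pos (p := 2) ⟨_, triv_mem_principal (G := G) hM⟩
    have k4 : blockRank 2 (principalBlock M G) ≠ 1 := fun e => by
      have := ((isNilpotentBlock_iff_top hM).1 ((Cfsg.Agent.S4646.result 2 M hM).2 e)).2.stab_le hM P.isPGroup' hF.hm.be
        hF.hm.mul (hF.hm.ADG_stab hM)
      rw [stab_e0 hM, sup_eq_right.2 hF.ab] at this
      exact absurd (hCN.symm.trans (Subgroup.relIndex_eq_one.2 this)) (by decide)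
    rw [stab_e0 hM, hCN] at k1
    rw [h0]
    by_contra k5
    obtain ⟨k6, k7⟩ := h3 ζ a d δ h4 hr
    obtain ⟨χ, k8⟩ := Finset.card_eq_one.1 (show ((fs (principalBlock M G \ ζ '' OS (ga (P : Subgroup G) (NS P)))).erase
      (triv G)).card = 1 by rw [Finset.card_erase_of_mem (mem_fs.2 k6), card_fs]; omega)
    have k9 := h4.norm
    have k10 := h4.pos
    have k11 := h4.le_sum χ (Finset.mem_of_mem_erase (k8.ge (Finset.mem_singleton_self χ)))
    rw [← Finset.add_sum_erase _ _ (mem_fs.2 k6), k8, Finset.sum_singleton, k7, h0] at k9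
    have k13 : Nat.card P = 10 := by
      have := Cfsg.Agent.S4721.arith_ten h4.sign (by omega) k10 k11 (by simpa using k9)
      omega
    obtain ⟨n, hn⟩ := P.isPGroup'.exists_card_eq
    have k15 := fun q (hq : q.Prime) (h : q ∣ 10) => (Nat.prime_dvd_prime_iff_eq hq hM.1).1 (hq.dvd_of_dvd_pow (hn ▸ k13 ▸ h))
    exact absurd (k15 5 Nat.prime_five (by decide)) (by decide))
  rw [h0] at h6
  obtain ⟨k6, k7⟩ := h3 ζ a 0 δ h4 hr
  have hv : ∀ o ∈ OS (ga (P : Subgroup G) (NS P)), ∀ y : P, y ≠ 1 → ∀ g : G, pp 2 g = y → (ζ o).1 g = δ * o y :=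
    fun o ho y hy g hg => by rw [h2 _ (h4.mem _ ho) _ hy g hg, h4.val _ ho _ hy]; simp
  have hv' : ∀ χ ∈ principalBlock M G \ ζ '' OS (ga (P : Subgroup G) (NS P)), ∀ y : P, y ≠ 1 → ∀ g : G, pp 2 g = y →
    χ.1 g = a χ := fun χ hχ y hy g hg => (h2 χ hχ.1 _ hy g hg).trans ((h4.val' χ hχ).2 _ hy)
  obtain ⟨χ₁, χ₂, k1, k2⟩ := Finset.card_eq_two.1 (show ((fs (principalBlock M G \ ζ '' OS (ga (P : Subgroup G)
    (NS P)))).erase (triv G)).card = 2 by rw [Finset.card_erase_of_mem (mem_fs.2 k6), card_fs, h6])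
  have k3 : ∀ χ, (χ ∈ principalBlock M G \ ζ '' OS (ga (P : Subgroup G) (NS P)) ∧ χ.1 ≠ fun _ => 1) ↔ χ = χ₁ ∨ χ = χ₂ :=
    fun χ => by
      rw [← Finset.mem_singleton (b := χ) (a := χ₂), ← Finset.mem_insert, ← k2, Finset.mem_erase, mem_fs, and_comm]
      exact and_congr_left' ⟨fun h e => h (e ▸ rfl), fun h e => h (Subtype.ext e)⟩
  have k4 : ∀ f : IrrCharacter G → ℂ, ∑ χ ∈ fs (principalBlock M G \ ζ '' OS (ga (P : Subgroup G) (NS P))), f χ =
      f (triv G) + (f χ₁ + f χ₂) := fun f => by rw [← Finset.add_sum_erase _ _ (mem_fs.2 k6), k2, Finset.sum_pair k1]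
  have k5 := fun f : IrrCharacter G → ℂ => (sum_split h4.mem h4.inj f).trans (congrArg _ (k4 f))
  have m1 := (k3 χ₁).2 (.inl rfl)
  have m2 := (k3 χ₂).2 (.inr rfl)
  have hy0 : ∀ y : P, pp 2 (y : G) = y := fun y => pp_of_isPElt hM.1 (isPElt_of_mem hM.1 P.isPGroup' y.2)
  have hd : ∀ o ∈ OS (ga (P : Subgroup G) (NS P)), ∀ o' ∈ OS (ga (P : Subgroup G) (NS P)), (ζ o).1 1 = (ζ o').1 1 :=
    fun o ho o' ho' => h4.reg o ho o' ho' 1 (not_dvd_orderOf_one hM.1)
  have h2P : 2 ∣ Nat.card P := P.isPGroup'.card_eq_or_dvd.resolve_left (by omega)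
  obtain ⟨t, ht⟩ := exists_prime_orderOf_dvd_card' 2 h2P
  have ht' : orderOf (t : G) = 2 := (Subgroup.orderOf_coe t).trans ht
  have hz : ∀ y : P, y ≠ 1 → ¬ IsConj (y : G) t →
      ∑ χ ∈ fs (principalBlock M G), conj (χ.1 y) * (χ.1 t * χ.1 t / χ.1 1) = 0 := fun y hy h => by
    have : ∑ i, KB (principalBlock M G) (i * t * i⁻¹ * t) y = 0 := Finset.sum_eq_zero fun i _ =>
      KB_eq_zero hM isPBlock_principal fun e => by
        rw [hy0] at e
        rcases frob_pp hab h1.toFr h0 ((H4.orderOf_conj (t : G) i).trans ht') ht' (isConj_iff.2 ⟨i, rfl⟩).symm with e' | ⟨e', e''⟩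
        · exact hy (Subtype.ext (by simpa [e'] using e.symm))
        · exact h (e.symm.trans e'')
    simp only [KB] at this
    rw [Finset.sum_comm] at this
    apply mul_left_cancel₀ (H3.card_ne_zero' G)
    rw [mul_zero, ← this, Finset.mul_sum]
    refine Finset.sum_congr rfl fun χ _ => ?_
    have h1 := sum_conj_mul χ.2 (t : G) t
    have h2 := H3.irr_one_ne_zero χ.2
    rw [← Finset.sum_mul]
    field_simp
    linear_combination -conj (χ.1 y) * h1
  have hs : ∀ y : P, y ≠ 1 → ∑ o ∈ OS (ga (P : Subgroup G) (NS P)), conj ((ζ o).1 y) = -δ := fun y hy => by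
    rw [← map_sum, Finset.sum_congr rfl fun o ho => hv o ho y hy y (hy0 y), ← Finset.mul_sum, h1.toFr.sum_OS_apply hy]; simp
  have n1 : t ≠ 1 := ne_one_of_two ht
  have n3 := fun o ho => h1.toFr.os_sq h0 (o := o) ho (t := t) (mul_self_of_two ht)
  obtain ⟨o, ho, n4⟩ : ∃ o ∈ OS (ga (P : Subgroup G) (NS P)), o t = 3 := by
    by_contra! h
    have := h1.toFr.sum_OS_apply n1
    rw [Finset.sum_congr rfl fun o ho => (n3 o ho).resolve_left (h o ho)] at this
    exact hr (by simpa using this)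
  obtain ⟨y, hy, n5⟩ : ∃ y : P, y ≠ 1 ∧ ¬ IsConj (y : G) t := by
    by_contra! h
    exact hr (h1.toFr.not_const ho (c := 3) fun y hy => by
      obtain ⟨γ, h3, rfl⟩ := sylow_fus hab (a := t) (h y hy).symm
      obtain ⟨l, -, rfl⟩ := mem_OS.1 ho
      rw [ai_os l γ h3, n4])
  have n6 := hz y hy n5
  have n7 := KB_eq_zero hM isPBlock_principal (g := (t : G)) (h := y) (by rw [hy0, hy0]; exact fun e => n5 e.symm)
  rw [k5, Finset.sum_congr rfl (g := fun o' => (3 * conj ((ζ o').1 y) + 2 * δ * ((ζ o').1 t * conj ((ζ o').1 y))) /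
    (ζ o).1 1) fun o' ho' => by
      rw [hd o' ho' o ho, hv o' ho' _ n1 _ (hy0 _)]
      rcases n3 o' ho' with e | e <;> rw [e] <;> rcases h4.sign with rfl | rfl <;> ring, ← Finset.sum_div,
    Finset.sum_add_distrib, ← Finset.mul_sum, ← Finset.mul_sum, hs y hy] at n6
  rw [KB, k5, ← eq_neg_iff_add_eq_zero] at n7
  rw [n7] at n6
  simp only [hv' _ m1.1 _ n1 _ (hy0 _), hv' _ m2.1 _ n1 _ (hy0 _),
    hv' _ m1.1 _ hy _ (hy0 _), hv' _ m2.1 _ hy _ (hy0 _), map_intCast, triv_apply] at n6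
  have r1 := h4.rel o ho 1 (not_dvd_orderOf_one hM.1)
  rw [k4, k7] at r1
  obtain ⟨u, hu⟩ := dvd_of_const (H3.char_gen (H3.irr_char χ₁.2)) P (n := charDegree χ₁.1)
    (fun y hy => hv' _ m1.1 y hy _ (hy0 y)) (irr_one_eq χ₁)
  obtain ⟨v, hv⟩ := dvd_of_const (H3.char_gen (H3.irr_char χ₂.2)) P (n := charDegree χ₂.1)
    (fun y hy => hv' _ m2.1 y hy _ (hy0 y)) (irr_one_eq χ₂)
  have e1 : χ₁.1 1 = a χ₁ + (Nat.card P : ℤ) * u := by
    rw [irr_one_eq]; exact_mod_cast (show (charDegree χ₁.1 : ℤ) = _ by linear_combination hu)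
  have e2 : χ₂.1 1 = a χ₂ + (Nat.card P : ℤ) * v := by
    rw [irr_one_eq]; exact_mod_cast (show (charDegree χ₂.1 : ℤ) = _ by linear_combination hv)
  have z1 := H3.irr_one_ne_zero χ₁.2
  have z2 := H3.irr_one_ne_zero χ₂.2
  have z3 := H3.irr_one_ne_zero (ζ o).2
  have w1 : (1 + (Nat.card P : ℤ) * (a χ₁ * u : ℤ) : ℂ) = a χ₁ * χ₁.1 1 := by
    rw [e1]; rcases h7 _ m1.1 with e | e <;> rw [e] <;> push_cast <;> ring
  have w2 : (1 + (Nat.card P : ℤ) * (a χ₂ * v : ℤ) : ℂ) = a χ₂ * χ₂.1 1 := by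
    rw [e2]; rcases h7 _ m2.1 with e | e <;> rw [e] <;> push_cast <;> ring
  have a1 : (a χ₁ : ℂ) ≠ 0 := by exact_mod_cast (h4.val' _ m1.1).1
  have a2 : (a χ₂ : ℂ) ≠ 0 := by exact_mod_cast (h4.val' _ m2.1).1
  have key := homo_arith (q := Nat.card P) (u := a χ₁ * u) (v := a χ₂ * v) (z := δ * (ζ o).1 1) (by omega) (by exact_mod_cast h2P)
    (mul_ne_zero (by rcases h4.sign with rfl | rfl <;> simp) z3) (w1 ▸ mul_ne_zero a1 z1) (w2 ▸ mul_ne_zero a2 z2)
    (by rw [w1, w2]; simp at r1; linear_combination r1) (by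
      rw [w1, w2]
      rcases h7 _ m1.1 with e1 | e1 <;> rcases h7 _ m2.1 with e2 | e2 <;> rcases h4.sign with rfl | rfl <;>
        simp only [e1, e2] at n6 ⊢ <;> push_cast at n6 ⊢ <;> simp at n6 ⊢ <;> field_simp at n6 ⊢ <;> linear_combination n6)
  have hu0 : u = 0 := (mul_eq_zero.1 key).resolve_left (h4.val' _ m1.1).1
  refine ⟨H3.charKer χ₁.1, H3.charKer_normal (H3.irr_class χ₁.2), fun e => m1.2 (H3.irr_eq_one_of_const χ₁.2 fun g =>
    (H3.mem_charKer (H3.irr_char χ₁.2) g).1 (e.ge (Subgroup.mem_top g))), fun g hg =>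
      (H3.mem_charKer (H3.irr_char χ₁.2) g).2 ?_⟩
  by_cases hg1 : g = 1
  · rw [hg1]
  · rw [e1, hu0, hv' _ m1.1 ⟨g, hg⟩ (fun e => hg1 (congrArg Subtype.val e)) _ (hy0 ⟨g, hg⟩)]; simp

end H4
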