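import Cfsg.Agent.H4.Kb

/-!
# The Knörr-Robinson alternating sum for `k - l`
-/

set_option autoImplicit false
set_option linter.unusedSectionVars false

namespace H4
open MonoidAlgebra Cfsg H1 H3
open scoped Pointwise ComplexConjugate Classical

variable {G : Type*} [Group G] [Finite G] {M : Ideal AlgInt} {p : ℕ} [hp : Fact p.Prime]
  {s : Finset (Subgroup G)} {u x : G} {Q T L X : Subgroup G}

/-- normal chains of `p`-subgroups normalized by `u` -/
structure Ch (p : ℕ) (u : G) (s : Finset (Subgroup G)) : Prop where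
  tot : ∀ Q ∈ s, ∀ R ∈ s, Q ≤ R ∨ R ≤ Q
  isP : ∀ Q ∈ s, Q ≠ ⊥ ∧ IsPGroup p Q
  nor : ∀ Q ∈ s, ∀ R ∈ s, R ≤ NS Q
  mem : ∀ Q ∈ s, u ∈ NS Q

/-- the closure of `u` under `T` -/
def cu (T : Subgroup G) (u : G) : Subgroup G := Subgroup.closure {y | ∃ t ∈ T, t * u * t⁻¹ = y}

theorem mem_cu (T : Subgroup G) (u : G) : u ∈ cu T u := Subgroup.subset_closure ⟨1, one_mem _, by simp⟩

theorem cu_le (h : u ∈ X) (h' : T ≤ NS X) : cu T u ≤ X := (Subgroup.closure_le _).2 <| by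
  rintro _ ⟨t, ht, rfl⟩; exact conj_mem_of_mem_normalizer (h' ht) h

theorem mem_NS_cu (h : x ∈ NS T) (h' : ∃ t ∈ T, t * u * t⁻¹ = x * u * x⁻¹) : x ∈ NS (cu T u) :=
  mem_normalizer_iff_conj_mem.2 fun y hy => by
    refine (Subgroup.closure_le ((cu T u).comap (MulAut.conj x).toMonoidHom)).2 ?_ hy
    rintro _ ⟨t, ht, rfl⟩
    obtain ⟨r, hr, e⟩ := h'
    refine Subgroup.subset_closure ⟨x * t * x⁻¹ * r, mul_mem (conj_mem_of_mem_normalizer h ht) hr, ?_⟩
    rw [show x * t * x⁻¹ * r * u * (x * t * x⁻¹ * r)⁻¹ = x * t * x⁻¹ * (r * u * r⁻¹) * (x * t * x⁻¹)⁻¹ by group, e]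
    simp [mul_assoc]

theorem le_NS_sup {t : Finset (Subgroup G)} (h : ∀ Q ∈ t, X ≤ NS Q) : X ≤ NS (t.sup id) :=
  Finset.sup_induction (p := fun Q => X ≤ NS Q) (le_top.trans (NS_eq_top ⊥).ge) (fun _ h _ h' => le_normalizer_sup h h') h

/-- top of the chain extended by `u` -/
noncomputable def tT (u : G) (s : Finset (Subgroup G)) : Subgroup G := s.sup id ⊔ Subgroup.zpowers u

/-- largest member not containing `u` -/
noncomputable def tA (u : G) (s : Finset (Subgroup G)) : Subgroup G := (s.filter (u ∉ ·)).sup id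

/-- the member to be inserted or removed -/
noncomputable def tR (u : G) (s : Finset (Subgroup G)) : Subgroup G := tA u s ⊔ cu (tT u s) u

theorem le_tT (h : Q ∈ s) : Q ≤ tT u s := (Finset.le_sup (f := id) h).trans le_sup_left

theorem mem_tT : u ∈ tT u s := Subgroup.mem_sup_right (Subgroup.mem_zpowers u)

theorem mem_tR : u ∈ tR u s := Subgroup.mem_sup_right (mem_cu _ _)

theorem tA_le (h : ∀ Q ∈ s, u ∉ Q → Q ≤ X) : tA u s ≤ X :=
  Finset.sup_le fun Q hQ => by rw [Finset.mem_filter] at hQ; exact h Q hQ.1 hQ.2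

theorem tR_le (h : ∀ Q ∈ s, u ∉ Q → Q ≤ X) (h1 : u ∈ X) (h2 : tT u s ≤ NS X) : tR u s ≤ X := sup_le (tA_le h) (cu_le h1 h2)

theorem tR_le_tT : tR u s ≤ tT u s := tR_le (fun _ h _ => le_tT h) mem_tT Subgroup.le_normalizer

theorem mem_NS_tR (h : ∀ Q ∈ s, x ∈ NS Q) (h1 : x ∈ NS (tT u s)) (h2 : ∃ t ∈ tT u s, t * u * t⁻¹ = x * u * x⁻¹) :
    x ∈ NS (tR u s) := Subgroup.zpowers_le.1 (le_normalizer_sup (le_NS_sup fun Q hQ => Subgroup.zpowers_le.2
      (h Q (Finset.mem_filter.1 hQ).1)) (Subgroup.zpowers_le.2 (mem_NS_cu h1 h2)))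

theorem Ch.le_NS (h : Ch p u s) (hQ : Q ∈ s) : tT u s ≤ NS Q :=
  sup_le (Finset.sup_le fun R hR => h.nor Q hQ R hR) (Subgroup.zpowers_le.2 (h.mem Q hQ))

theorem sup_mem_of_tot (h : ∀ Q ∈ s, ∀ R ∈ s, Q ≤ R ∨ R ≤ Q) : s.sup id = ⊥ ∨ s.sup id ∈ s :=
  Finset.sup_induction (p := fun Q => Q = ⊥ ∨ Q ∈ s) (.inl rfl) (by
    rintro Q (rfl | hQ) R (rfl | hR)
    exacts [by simp, by simp [hR], by simp [hQ], .inr ((h Q hQ R hR).elim (fun e => by rwa [sup_eq_right.2 e])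
      fun e => by rwa [sup_eq_left.2 e])]) fun _ h => .inr h

theorem Ch.isP_tT (h : Ch p u s) (hu : IsPElt p u) : IsPGroup p (tT u s) := by
  refine isPGroup_sup_of_CS ?_ (isPGroup_zpowers hp.out hu) (le_NS_sup fun Q hQ => Subgroup.zpowers_le.2 (h.mem Q hQ))
  exact (sup_mem_of_tot h.tot).elim (fun e => e ▸ IsPGroup.of_bot) fun e => (h.isP _ e).2

theorem Ch.tT_erase (h : Ch p u s) (hu : IsPElt p u) : tT u (s.erase (tR u s)) = tT u s := by
  refine (sup_le_sup_right (Finset.sup_mono (Finset.erase_subset _ _)) _).eq_of_not_lt fun h1 => ?_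
  obtain ⟨X, ⟨h2, h3⟩, h4⟩ := (Set.toFinite {X | tT u (s.erase (tR u s)) ≤ X ∧ X < tT u s}).exists_maximal ⟨_, le_rfl, h1⟩
  have h5 := lt_normalizer_inf_of_isPGroup (h.isP_tT hu) h3
  have h6 : tT u s ≤ NS X := inf_eq_right.1 (inf_le_right.eq_of_not_lt fun e => h5.not_ge (h4 ⟨h2.trans h5.le, e⟩ h5.le))
  have h7 : ∀ Q ∈ s, Q ≠ tR u s → Q ≤ X := fun Q hQ e => (le_tT (Finset.mem_erase.2 ⟨e, hQ⟩)).trans h2
  have h8 : tR u s ≤ X := tR_le (fun Q hQ e => h7 Q hQ fun e' => e (e' ▸ mem_tR)) (h2 mem_tT) h6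
  exact h3.not_ge (sup_le (Finset.sup_le fun Q hQ => by
    by_cases e : Q = tR u s
    exacts [e.trans_le h8, h7 Q hQ e]) (Subgroup.zpowers_le.2 (h2 mem_tT)))

theorem Ch.insert (h : Ch p u s) (hu : IsPElt p u) (h1 : u ≠ 1) :
    Ch p u (insert (tR u s) s) := by
  have h2 : tT u s ≤ NS (tR u s) := fun x hx => mem_NS_tR (fun Q hQ => h.le_NS hQ hx) (Subgroup.le_normalizer hx) ⟨x, hx, rfl⟩
  have h3 : ∀ Q ∈ s, tR u s ≤ Q ∨ Q ≤ tR u s := fun Q hQ => by
    by_cases e : u ∈ Q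
    · exact .inl (tR_le (fun R hR e' => (h.tot R hR Q hQ).resolve_right fun h => e' (h e)) e (h.le_NS hQ))
    · exact .inr ((Finset.le_sup (f := id) (Finset.mem_filter.2 ⟨hQ, e⟩)).trans le_sup_left)
  refine ⟨?_, ?_, ?_, ?_⟩ <;> simp only [Finset.forall_mem_insert]
  · exact ⟨⟨.inl le_rfl, h3⟩, fun Q hQ => ⟨(h3 Q hQ).symm, h.tot Q hQ⟩⟩
  · exact ⟨⟨fun e => h1 (Subgroup.mem_bot.1 (e ▸ mem_tR)), (h.isP_tT hu).to_le tR_le_tT⟩, h.isP⟩
  · exact ⟨⟨Subgroup.le_normalizer, fun Q hQ => (le_tT hQ).trans h2⟩, fun Q hQ => ⟨tR_le_tT.trans (h.le_NS hQ), h.nor Q hQ⟩⟩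
  · exact ⟨h2 mem_tT, h.mem⟩

theorem Ch.mono (h : Ch p u s) {t : Finset (Subgroup G)} (e : t ⊆ s) : Ch p u t :=
  ⟨fun Q a R b => h.tot Q (e a) R (e b), fun Q a => h.isP Q (e a), fun Q a R b => h.nor Q (e a) R (e b),
    fun Q a => h.mem Q (e a)⟩

theorem tR_insert : tR u (insert (tR u s) s) = tR u s := by
  have h1 : tT u (insert (tR u s) s) = tT u s := by
    rw [tT, Finset.sup_insert, sup_assoc]; exact sup_eq_right.2 tR_le_tT
  have h2 : tA u (insert (tR u s) s) = tA u s := by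
    rw [tA, Finset.filter_insert, if_neg (not_not.2 mem_tR)]; rfl
  rw [tR, h1, h2, tR]

theorem Ch.tR_erase (h : Ch p u s) (hu : IsPElt p u) : tR u (s.erase (tR u s)) = tR u s := by
  have h2 : tA u (s.erase (tR u s)) = tA u s := by
    rw [tA, Finset.filter_erase, Finset.erase_eq_of_notMem (by simp [mem_tR])]; rfl
  rw [tR, h.tT_erase hu, h2, tR]

theorem inf_insert :
    (⨅ Q ∈ insert (tR u s) s, NS Q) ⊓ C1 u = (⨅ Q ∈ s, NS Q) ⊓ C1 u := by
  rw [Finset.iInf_insert, inf_assoc]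
  refine inf_eq_right.2 fun x ⟨h1, h2⟩ => ?_
  have h3 : ∀ Q ∈ s, x ∈ NS Q := by simpa [Subgroup.mem_iInf] using h1
  exact mem_NS_tR h3 (Subgroup.zpowers_le.1 (le_normalizer_sup (le_NS_sup fun Q hQ => Subgroup.zpowers_le.2 (h3 Q hQ))
    (Subgroup.zpowers_le.2 (CS_le_NS _ ((CS_zpowers u).ge h2)))))
    ⟨1, one_mem _, by simp [← (mem_centralizer_singleton.1 h2).eq]⟩

theorem chain_sum (hu : IsPElt p u) (h1 : u ≠ 1) (F : Subgroup G → ℂ) :
    ∑ s ∈ fs {s | Ch p u s}, (-1) ^ s.card * F ((⨅ Q ∈ s, NS Q) ⊓ C1 u) = 0 := by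
  refine Finset.sum_involution (fun s _ => if tR u s ∈ s then s.erase (tR u s) else insert (tR u s) s)
    (fun s hs => ?_) (fun s _ _ => ?_) (fun s hs => mem_fs.2 ?_) fun s hs => ?_
  · split_ifs with e
    · have := inf_insert (u := u) (s := s.erase (tR u s))
      rw [(mem_fs.1 hs).tR_erase hu, Finset.insert_erase e] at this
      rw [this, ← Finset.card_erase_add_one e]; ring
    · rw [inf_insert, Finset.card_insert_of_notMem e]; ring
  · split_ifs with e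
    exacts [fun h => Finset.erase_eq_self.1 h e, fun h => e (Finset.insert_eq_self.1 h)]
  · split_ifs
    exacts [(mem_fs.1 hs).mono (Finset.erase_subset _ _), (mem_fs.1 hs).insert hu h1]
  · by_cases e : tR u s ∈ s
    · simp [e, (mem_fs.1 hs).tR_erase hu]
    · simp [e, tR_insert]

/-- the union of the blocks not annihilating `E` -/
def UB (E : (k M)[G]) : Set (IrrCharacter G) := {ψ | lam M ψ.1 E ≠ 0}

theorem sum_UB (hM : IsPModular p M) (E : (k M)[G]) {A : Type*} [AddCommMonoid A] (f : IrrCharacter G → A) :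
    ∑ ψ ∈ fs (UB E), f ψ = ∑ β ∈ blocks G M with lamB M β E ≠ 0, ∑ ψ ∈ fs β, f ψ := by
  rw [show fs (UB E) = Finset.univ.filter (· ∈ UB E) by ext; simp [mem_fs], Finset.sum_filter, ← sum_blocks_sum hM,
    Finset.sum_filter]
  refine Finset.sum_congr rfl fun β hβ => ?_
  rw [Finset.sum_congr rfl fun ψ hψ => if_congr (show ψ ∈ UB E ↔ lamB M β E ≠ 0 by
    rw [lamB_eq hM (mem_blocks.1 hβ) (mem_fs.1 hψ)]; rfl) rfl rfl]
  split_ifs <;> simp

theorem rc_UB (hM : IsPModular p M) (E : (k M)[G]) : RC p (UB E) := fun θ => by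
  cases nonempty_fintype G
  simp only [blockPart_eq (UB E), sum_UB hM, ← blockPart_eq]
  rw [reg_sum]
  exact Finset.sum_congr rfl fun β hβ => blockPart_reg hM (mem_blocks.1 (Finset.mem_filter.1 hβ).1) θ

theorem Sec.KB_UB {H : Subgroup G} {z y : H} (hM : IsPModular p M) (hz : Sec p z) {E : (k M)[G]} (hE : E ∈ Z (k M) G)
    (hy : ¬ p ∣ orderOf y) : H4.KB (UB E) ((z : G) * y) ((z : G) * y) = H4.KB (UB (resA H E)) y y := by
  rw [H4.KB, H4.KB, sum_UB hM, sum_UB hM, Finset.sum_congr rfl fun β hβ => show ∑ ψ ∈ fs β, _ = _ from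
    hz.KB hM (mem_blocks.1 (Finset.mem_filter.1 hβ).1) hy hy]
  simp only [Finset.sum_filter (s := blocks H M)]
  rw [Finset.sum_comm]
  refine Finset.sum_congr rfl fun c hc => ?_
  obtain ⟨β, h⟩ := hz.defined hM (mem_blocks.1 hc)
  rw [Finset.sum_filter, Finset.sum_eq_single β (fun γ _ e => by rw [if_neg fun h' => e (ind_unique hM h' h), ite_self])
    (by simp [h.2.1]), if_pos h, ind_lamB hM h hE]; rfl

variable (p) in
/-- local weight -/
noncomputable def Vw (E : (k M)[G]) (g : G) (K : Subgroup G) : ℂ :=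
  if h : g ∈ K then KB (UB (resA K E)) (pq p ⟨g, h⟩) (pq p ⟨g, h⟩) else 0

theorem KB_UB_map {A A' : Type*} [Group A] [Finite A] [Group A'] [Finite A'] (σ : A ≃* A') {E : (k M)[A]}
    (hE : E ∈ Z (k M) A) (y : A) : KB (UB (mapA σ.toMonoidHom E)) (σ y) (σ y) = KB (UB E) y y :=
  Finset.sum_bij (fun χ _ => infl (f := σ.toMonoidHom) σ.surjective χ)
    (fun χ hχ => mem_fs.2 ((lam_infl _ χ hE).trans_ne (mem_fs.1 hχ)))
    (fun _ _ _ _ e => infl_inj _ e) (fun ψ hψ => by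
      obtain ⟨χ, rfl⟩ := exists_infl (f := σ.toMonoidHom) σ.surjective (θ := ψ) fun g hg => by
        rw [σ.injective (hg.trans (map_one σ).symm)]
      exact ⟨χ, mem_fs.2 ((lam_infl _ χ hE).symm.trans_ne (mem_fs.1 hψ)), rfl⟩) fun _ _ => rfl

theorem card_sub_rank (hM : IsPModular p M) [Fintype G] {A : Type*} [Group A] [Finite A] {φ : A →* G} (hφ : Function.Injective φ)
    {E : (k M)[G]} (hE : E ∈ Z (k M) G) {E' : (k M)[A]} (h : ∀ a, E'.coeff a = E.coeff (φ a)) :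
    (Nat.card A : ℂ) * (Nat.card (UB E') - blockRank p (UB E')) =
      ∑ g with p ∣ orderOf g, Vw p E g (φ.range ⊓ C1 (pp p g)) := by
  cases nonempty_fintype A
  have hE' : E' ∈ Z (k M) A := mem_Z.2 fun a b => by simpa [h] using mem_Z.1 hE (φ a) (φ b)
  rw [mul_sub, card_mul_card, (rc_UB hM E').card_mul_rank, ← Finset.sum_sub_distrib,
    ← Finset.sum_filter_of_ne (p := fun a : A => p ∣ orderOf a) fun a _ h => by_contra fun e => h (by
      rw [reg_of_not_dvd _ e, sub_self])]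
  refine Finset.sum_of_injOn φ hφ.injOn (fun a ha => by simpa [orderOf_injective φ hφ] using ha)
    (fun g hg h => dif_neg fun e => ?_) fun a ha => ?_
  · obtain ⟨⟨a, rfl⟩, -⟩ := e
    exact h ⟨a, by simpa [orderOf_injective φ hφ] using hg, rfl⟩
  let y : C1 (pp p a) := ⟨a, mem_C1_pp a⟩
  have h1 : (C1 (pp p a)).map φ = φ.range ⊓ C1 (pp p (φ a)) := by
    ext x
    simp only [Subgroup.mem_map, Subgroup.mem_inf, mem_centralizer_singleton, ← map_pp hp.out φ]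
    exact ⟨fun ⟨y, h, e⟩ => e ▸ ⟨⟨y, rfl⟩, h.map φ⟩, fun ⟨⟨y, e⟩, h⟩ => ⟨y, hφ (by simpa [e] using h.eq), e⟩⟩
  have h2 := (sec_cEl (isPElt_pp hp.out a)).KB_UB hM hE' (not_dvd_orderOf_pq hp.out y)
  rw [coe_pq hp.out, show (cEl (pp p a) : A) * pq p (y : A) = a from pp_mul_pq a] at h2
  rw [reg_of_dvd _ (Finset.mem_filter.1 ha).2, sub_zero, ← h1, Vw, dif_pos ⟨a, y.2, rfl⟩, h2,
    ← KB_UB_map ((C1 (pp p a)).equivMapOfInjective φ hφ) (resA_mem_Z' _ hE')]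
  congr 2
  · refine ext_coeff fun x => ?_
    obtain ⟨x, rfl⟩ := ((C1 (pp p a)).equivMapOfInjective φ hφ).surjective x
    exact (coeff_mapA_inj (f := MulEquiv.toMonoidHom _) (MulEquiv.injective _) _ x).trans (h x)
  all_goals exact map_pq hp.out ((C1 (pp p a)).equivMapOfInjective φ hφ).toMonoidHom y

end H4
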