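import Cfsg.Agent.H8.Stn3

set_option autoImplicit false
set_option maxRecDepth 200000

namespace H4.SRG
open Cfsg

/-- number of set bits below `n` -/
def pop (m : ℕ) : ℕ → ℕ := Nat.rec 0 (fun n ih => ih + (m >>> n) % 2)

theorem pop_eq (m n : ℕ) : pop m n = ((Finset.range n).filter fun i => m.testBit i = true).card := by
  induction n with
  | zero => rfl
  | succ n ih =>
    have : pop m (n+1) = pop m n + (m >>> n) % 2 := rfl
    rw [this, ih, Finset.range_add_one, Finset.filter_insert]
    have h2 : m.testBit n = true ↔ (m >>> n) % 2 = 1 := by
      simp [Nat.testBit, Nat.and_one_is_mod, Nat.one_and_eq_mod_two]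
    by_cases h : m.testBit n = true
    · rw [if_pos h, Finset.card_insert_of_notMem (by simp), h2.1 h]
    · rw [if_neg h]
      have := h2.not.1 h
      omega

def allN (f : ℕ → Bool) : ℕ → Bool := Nat.rec true (fun n ih => ih && f n)

theorem allN_iff {f : ℕ → Bool} {n : ℕ} (h : allN f n = true) : ∀ i < n, f i = true := by
  induction n with
  | zero => intro i hi; omega
  | succ n ih =>
    have : allN f (n+1) = (allN f n && f n) := rfl
    rw [this, Bool.and_eq_true] at h
    intro i hi
    rcases Nat.lt_succ_iff_lt_or_eq.1 hi with hi | rfl
    · exact ih h.1 i hi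
    · exact h.2

def chk (N k l m : ℕ) (A : ℕ → ℕ) : Bool :=
  allN (fun i => (pop (A i) N == k) && allN (fun j => (i == j) ||
    (pop (A i &&& A j) N == (if (A i).testBit j then l else m))) N) N

theorem card_filter {V : Type*} [Fintype V] {N : ℕ} (e : Fin N ≃ V) (P : V → Prop) [DecidablePred P] (m : ℕ)
    (h : ∀ i : Fin N, P (e i) ↔ m.testBit i = true) : (Finset.univ.filter P).card = pop m N := by
  rw [pop_eq]
  symm
  refine Finset.card_bij (fun i hi => e ⟨i, Finset.mem_range.1 (Finset.mem_filter.1 hi).1⟩) ?_ ?_ ?_
  · intro i hi
    simp only [Finset.mem_filter, Finset.mem_univ, true_and]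
    exact (h _).2 (Finset.mem_filter.1 hi).2
  · intro i hi j hj hij
    exact congrArg Fin.val (e.injective hij)
  · intro v hv
    obtain ⟨i, rfl⟩ := e.surjective v
    exact ⟨i, Finset.mem_filter.2 ⟨Finset.mem_range.2 i.2, (h i).1 (Finset.mem_filter.1 hv).2⟩, rfl⟩

theorem srg_of {V : Type*} [Fintype V] (G : SimpleGraph V) [DecidableRel G.Adj] {N k l m : ℕ} (e : Fin N ≃ V)
    (A : ℕ → ℕ) (ha : ∀ i j : Fin N, G.Adj (e i) (e j) ↔ (A i).testBit j = true) (h : chk N k l m A = true) :
    G.IsSRGWith N k l m := by
  classical
  have h1 := allN_iff h
  have hc : ∀ i j : Fin N, Fintype.card (G.commonNeighbors (e i) (e j)) = pop (A i &&& A j) N := by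
    intro i j
    rw [← card_filter e (fun v => v ∈ G.commonNeighbors (e i) (e j)) _ fun t => by
      simp [SimpleGraph.mem_commonNeighbors, ha]]
    rw [Fintype.card_subtype]
  refine ⟨by rw [← Fintype.card_congr e, Fintype.card_fin], ?_, ?_, ?_⟩
  · intro v
    obtain ⟨i, rfl⟩ := e.surjective v
    have := h1 i i.2
    simp only [Bool.and_eq_true, beq_iff_eq] at this
    rw [← this.1, ← card_filter e (fun v => G.Adj (e i) v) _ fun t => ha i t, ← SimpleGraph.card_neighborFinset_eq_degree,
      SimpleGraph.neighborFinset_eq_filter]
  · intro v w hvw
    obtain ⟨i, rfl⟩ := e.surjective v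
    obtain ⟨j, rfl⟩ := e.surjective w
    have := h1 i i.2
    simp only [Bool.and_eq_true, beq_iff_eq] at this
    have h3 := allN_iff this.2 j j.2
    simp only [Bool.or_eq_true, beq_iff_eq] at h3
    rcases h3 with h3 | h3
    · exact absurd (congrArg e (Fin.ext h3)) hvw.ne
    · rw [if_pos ((ha i j).1 hvw)] at h3
      rw [← h3, ← hc]
  · intro v w hvw hn
    obtain ⟨i, rfl⟩ := e.surjective v
    obtain ⟨j, rfl⟩ := e.surjective w
    have := h1 i i.2
    simp only [Bool.and_eq_true, beq_iff_eq] at this
    have h3 := allN_iff this.2 j j.2
    simp only [Bool.or_eq_true, beq_iff_eq] at h3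
    rcases h3 with h3 | h3
    · exact absurd (congrArg e (Fin.ext h3)) hvw
    · rw [if_neg (fun h => hn ((ha i j).2 h))] at h3
      rw [← h3, ← hc]

variable {X : Type*} [Fintype X] [DecidableEq X]

theorem hlen : H8.StA.hL.length = 77 := by decide +kernel

theorem hl {i : ℕ} (hi : i < 77) : i < H8.StA.hL.length := by rw [hlen]; exact hi

noncomputable def bl (i : ℕ) : ℕ := H8.StA.hL.getD i 0

theorem bl_mem {i : ℕ} (hi : i < 77) : bl i ∈ H8.StA.hL := by
  unfold bl
  rw [List.getD_eq_getElem _ _ (hlen ▸ hi)]
  exact List.getElem_mem _

theorem bl_lt {i : ℕ} (hi : i < 77) : bl i < 2 ^ 22 := H8.msk_lt H8.StC.hm _ (bl_mem hi)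

noncomputable def eB (C : H7.Coding X) (hn : C.n = 22) : Fin 77 ≃ H8.blk C H8.StA.hL :=
  Equiv.ofBijective (fun i => ⟨C.fs (bl i), _, bl_mem i.2, rfl⟩) (by
    constructor
    · intro i j hij
      have h1 := (H8.fs_eq hn (bl_lt i.2) (bl_lt j.2)).1 (congrArg Subtype.val hij)
      unfold bl at h1
      rw [List.getD_eq_getElem _ _ (hl i.2), List.getD_eq_getElem _ _ (hl j.2)] at h1
      exact Fin.ext ((H8.msk_nodup H8.StC.hm).getElem_inj_iff.1 h1)
    · rintro ⟨_, m, hm, rfl⟩
      obtain ⟨i, hi, rfl⟩ := List.getElem_of_mem hm
      refine ⟨⟨i, hlen ▸ hi⟩, Subtype.ext ?_⟩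
      show C.fs (bl i) = _
      unfold bl
      rw [List.getD_eq_getElem _ _ hi])

theorem eB_val (C : H7.Coding X) (hn : C.n = 22) (i : Fin 77) : (eB C hn i : Finset X) = C.fs (bl i) := rfl

noncomputable def eP (C : H7.Coding X) (hn : C.n = 22) : Fin 22 ≃ X :=
  ⟨fun i => C.dec i, fun x => ⟨C.code x, hn ▸ C.code_lt x⟩, fun i => Fin.ext (C.code_dec i (by rw [hn]; exact i.2)), C.dec_code⟩

def A77 : List ℕ := [26655601516707875782720, 115725757217607539228672, 60215964989740015421448, 85795845267073399816196, 48791692193478205505792, 44318347956903635599616, 114667416539525111874049, 57701528071589465964544, 96956959564909145751600, 31036693074743290036288, 17856561557032198668288, 80805999641205567135748, 95738710398766369775616, 50175592024391328208896, 87444504177394772344992, 45160535449042677665800, 114002628027695425914368, 113673747054515456050177, 82679615805944133320848, 81484475161382758654592, 94764401182418936013856, 30107991433762270742530, 95051613966039250928656, 86193862056832877494401, 25088017871392607387658, 15058334811962711478594, 80873196708707486925332, 85298541748267373297701, 42668762674869324239360,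 47385651849305682874369, 56724461149066289499136, 56754003449805015876616, 23803219372030128365586, 28556859749013159313442, 47264089730489006950657, 42579913784554081485576, 14278647988476443623622, 28357617813192291223648, 14197219918740975718788, 23622857379068145459288, 3599709168352142362752, 2827107645121944948768, 3111735141175623553040, 1997148277198233567746, 3625505786583590240392, 1661936349339665326083, 2993632744591626078288, 998574138865614324998, 2731631332664600428648, 913978522841502733380, 1790703269512246119168, 1491952484633949839625, 144115188076076115392, 242762034313842532900, 194195215932253126677, 9079256848778927803, 30751880141345922, 55329943189725248, 54897724729991424, 45722711752278272, 41979929785860100, 47434329704415296, 42865736989425668, 25355565467175458, 15203360937869339, 22765479521554984, 13959513442965521, 27072188989312456, 3274345813281424, 1913150339358889, 3440371911103604, 377132488648455, 932394601505, 507521295896, 703325016965, 55566377206, 215963978]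

def A100 : List ℕ := [240905125159731570935988288, 721391092884795738898300928, 1818889111575199333360863240, 2508757987273074439561969668, 3260219495737944705094385920, 6296432218355849302799040768, 8414238371934358581066859009, 8825367300442316393467887616, 10257983652117145285174493232, 11144967051992889276259434560, 11935742473616790874072743936, 15491256258541499450252075012, 17410440929890480825900769280, 20291114479186315945537181696, 20739814342902948201444147360, 21707819408990634160995438600, 22684398081876929529612600832, 24808027070876504323660973057, 29848461165901000267628806288, 40360069972309556380324340352, 42136599744159274988732425248, 43638927650075606738933254146, 44955361695531018358521627664, 49856791457679171312347545729, 54663117179167847813415518218, 60825908746425264258878017858, 64398350358248390214910214676, 72419728712463946177618903077, 79455483237114562747712950784, 81404427490949971242344779777, 81820609543161607096344005632, 84495206832873823055460959240, 85460198917597123019282653202, 92074236830349136217131089954, 102769017800799934687016913153, 104838089656894426584601068296, 108949920299592887987432587462,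 118998979138381865889378437216, 119483290884467082251179594116, 130065934703556102716433522776, 158516472687763671340671895680, 159271294973784032201431650336, 160030349557402063548178894864, 163883195029927022750577492482, 169365977481691779100520349832, 172122024155388792717631840259, 179580039984015287177001830480, 185693726974475313016126047494, 188327071374108072814915879016, 198085367656657097861399598148, 200797744725414716914243128064, 204879682456592727444342251785, 237774552660469490730223576512, 240785382512866570927595725348, 252559262137254077907116605461, 297453780073619536026884120251, 317273212182788165405673264258, 318166910594962858086123184192, 321325229298705644586583335168, 322041517846818137359619031296, 322485042506885511656122941444, 327058106651038204566661283904, 329316531197801215100944269316, 339390207821177506184954907170, 353122396206169926775913054235, 357614764551865450907704889896, 357822850908557812988322600977, 376412049889602722997385301448, 396548220572535092345409014416, 406702592994386808902879617193, 415955257870536352341711918196, 443192205470723432579772770055, 478155095752615391255415524385,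 480441627824689010085852112408, 495823999953465551900617216901, 524890203434460080500319166710, 555990122375501319621578807626, 633825306094337195199485322122, 633825375825389767095400571441, 633825305575078560637463450134, 633825338198723965288530334985, 633825339074579584367405058569, 633825310781098433133447055747, 633825321367291000052695894072, 633825319377722806560230745194, 633825310232261950057660449092, 633825310004169315687695454247, 633825375720979009159173252245, 633825305187077438207149826372, 633825319632222361714002807890, 633825375764646854918230017700, 633825307211798022532256305368, 633825311940227450025879410912, 633825338508724996442838802176, 633825320359452843143307190272, 633825340512524192581303140352, 633825380099264559446621159424, 633825446507547726201879527424, 633825451229770094982960513024, 633825148998387248919704764416]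

theorem c77 : chk 77 16 0 4 (fun i => A77.getD i 0) = true := by decide +kernel
theorem c100 : chk 100 22 0 6 (fun i => A100.getD i 0) = true := by decide +kernel

theorem d77 : allN (fun i => allN (fun j => (A77.getD i 0).testBit j == ((i != j) && (bl i &&& bl j == 0))) 77) 77 = true := by
  decide +kernel

theorem d100a : allN (fun i => allN (fun j => (A100.getD i 0).testBit j == ((i != j) && (bl i &&& bl j == 0))) 77) 77 = true := by
  decide +kernel
theorem d100b : allN (fun i => allN (fun j => ((A100.getD i 0).testBit (77 + j) == (bl i).testBit j) &&
    ((A100.getD (77 + j) 0).testBit i == (bl i).testBit j)) 22) 77 = true := by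
  decide +kernel
theorem d100c : allN (fun i => allN (fun j => ((A100.getD (77 + i) 0).testBit (77 + j) == false)) 22) 22 = true := by
  decide +kernel
theorem d100d : allN (fun i => ((A100.getD 99 0).testBit i == false) && ((A100.getD i 0).testBit 99 == false)) 77 = true := by
  decide +kernel
theorem d100e : allN (fun i => ((A100.getD 99 0).testBit (77 + i) == true) && ((A100.getD (77 + i) 0).testBit 99 == true)) 22 = true := by
  decide +kernel
theorem d100f : (A100.getD 99 0).testBit 99 = false := by decide +kernel

theorem adjB (C : H7.Coding X) (hn : C.n = 22) (i j : Fin 77) :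
    (eB C hn i ≠ eB C hn j ∧ Disjoint (eB C hn i : Finset X) (eB C hn j : Finset X)) ↔
      ((i.1 != j.1) && (bl i &&& bl j == 0)) = true := by
  rw [eB_val, eB_val, H8.disj_fs hn _ (bl_lt j.2)]
  simp [Fin.ext_iff]

/-- vertices of the 100-point graph -/
noncomputable def v100 (C : H7.Coding X) (hn : C.n = 22) (i : Fin 100) : Option (X ⊕ H8.blk C H8.StA.hL) :=
  if h : i.1 < 77 then some (Sum.inr (eB C hn ⟨i, h⟩)) else
    if h' : i.1 < 99 then some (Sum.inl (eP C hn ⟨i - 77, by omega⟩)) else none

theorem fin100 (i : Fin 100) : (∃ a : Fin 77, i = ⟨a, by omega⟩) ∨ (∃ a : Fin 22, i = ⟨77 + a, by omega⟩) ∨ i = ⟨99, by omega⟩ := by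
  by_cases h : i.1 < 77
  · exact Or.inl ⟨⟨i, h⟩, rfl⟩
  by_cases h' : i.1 < 99
  · exact Or.inr (Or.inl ⟨⟨i - 77, by omega⟩, Fin.ext (by simp; omega)⟩)
  · exact Or.inr (Or.inr (Fin.ext (by simp; omega)))

theorem v1 (C : H7.Coding X) (hn : C.n = 22) (a : Fin 77) : v100 C hn ⟨a, by omega⟩ = some (Sum.inr (eB C hn a)) := by
  simp [v100]
theorem v2 (C : H7.Coding X) (hn : C.n = 22) (a : Fin 22) : v100 C hn ⟨77 + a, by omega⟩ = some (Sum.inl (eP C hn a)) := by
  have := a.2
  unfold v100
  rw [dif_neg (by simp), dif_pos (by simp; omega)]
  simp
theorem v3 (C : H7.Coding X) (hn : C.n = 22) : v100 C hn ⟨99, by omega⟩ = none := by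
  simp [v100]

noncomputable def e100 (C : H7.Coding X) (hn : C.n = 22) : Fin 100 ≃ Option (X ⊕ H8.blk C H8.StA.hL) :=
  Equiv.ofBijective (v100 C hn) (by
    constructor
    · intro i j hij
      rcases fin100 i with ⟨a, rfl⟩ | ⟨a, rfl⟩ | rfl <;> rcases fin100 j with ⟨b, rfl⟩ | ⟨b, rfl⟩ | rfl <;>
        simp only [v1, v2, v3] at hij <;> simp_all
    · rintro (_ | x | b)
      · exact ⟨_, v3 C hn⟩
      · obtain ⟨a, rfl⟩ := (eP C hn).surjective x
        exact ⟨_, v2 C hn a⟩
      · obtain ⟨a, rfl⟩ := (eB C hn).surjective b
        exact ⟨_, v1 C hn a⟩)

theorem memP (C : H7.Coding X) (hn : C.n = 22) (a : Fin 22) (i : Fin 77) :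
    eP C hn a ∈ (eB C hn i : Finset X) ↔ (bl i).testBit a = true := H8.dec_mem hn a.2

theorem adj100 (C : H7.Coding X) (hn : C.n = 22) (i j : Fin 100) :
    (pointBlockGraph (H8.blk C H8.StA.hL)).Adj (e100 C hn i) (e100 C hn j) ↔ (A100.getD i 0).testBit j = true := by
  show (pointBlockGraph (H8.blk C H8.StA.hL)).Adj (v100 C hn i) (v100 C hn j) ↔ _
  unfold pointBlockGraph
  rw [SimpleGraph.fromRel_adj]
  rcases fin100 i with ⟨a, rfl⟩ | ⟨a, rfl⟩ | rfl <;> rcases fin100 j with ⟨b, rfl⟩ | ⟨b, rfl⟩ | rfl <;>
    simp only [v1, v2, v3, pointBlockRel]
  · have := allN_iff (allN_iff d100a a a.2) b b.2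
    rw [beq_iff_eq] at this
    rw [this, ← adjB C hn, disjoint_comm (a := (eB C hn b : Finset X))]
    simp
  · have := allN_iff (allN_iff d100b a a.2) b b.2
    simp only [Bool.and_eq_true, beq_iff_eq] at this
    rw [this.1, memP]; simp
  · have := allN_iff d100d a a.2
    simp only [Bool.and_eq_true, beq_iff_eq] at this
    rw [this.2]; simp
  · have := allN_iff (allN_iff d100b b b.2) a a.2
    simp only [Bool.and_eq_true, beq_iff_eq] at this
    rw [this.2, memP]; simp
  · have := allN_iff (allN_iff d100c a a.2) b b.2
    simp only [beq_iff_eq] at this
    rw [this]; simp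
  · have := allN_iff d100e a a.2
    simp only [Bool.and_eq_true, beq_iff_eq] at this
    rw [this.2]; simp
  · have := allN_iff d100d b b.2
    simp only [Bool.and_eq_true, beq_iff_eq] at this
    rw [this.1]; simp
  · have := allN_iff d100e b b.2
    simp only [Bool.and_eq_true, beq_iff_eq] at this
    rw [this.1]; simp
  · rw [d100f]; simp

theorem adj77 (C : H7.Coding X) (hn : C.n = 22) (i j : Fin 77) :
    (blockGraph (H8.blk C H8.StA.hL)).Adj (eB C hn i) (eB C hn j) ↔ (A77.getD i 0).testBit j = true := by
  unfold blockGraph
  rw [SimpleGraph.fromRel_adj]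
  have := allN_iff (allN_iff d77 i i.2) j j.2
  rw [beq_iff_eq] at this
  rw [this, ← adjB C hn, disjoint_comm (a := (eB C hn j : Finset X))]
  simp

end H4.SRG
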