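import Cfsg.Agent.H5.Dih
import Cfsg.Agent.H8.FM
import Cfsg.Agent.S0282

set_option autoImplicit false
set_option maxRecDepth 100000

namespace H4.U32
open Cfsg Subgroup Matrix

abbrev K := QuadraticAlgebra (ZMod 2) 1 1
abbrev Mt := Matrix (Fin 3) (Fin 3) K
def w : K := ⟨0, 1⟩
def w2 : K := ⟨1, 1⟩

variable {F : Type*} [Field F] [Fintype F]

theorem char2 (hF : Fintype.card F = 4) : CharP F 2 := H8.charP_of_card (k := 2) Nat.prime_two hF

theorem exψ (hF : Fintype.card F = 4) : ∃ ψ : K →+* F, Function.Bijective ψ := by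
  haveI := char2 hF
  letI : Algebra (ZMod 2) F := ZMod.algebra F 2
  obtain ⟨ω, hω⟩ := H8.exists_fm4 hF
  have t : (2 : F) = 0 := CharP.cast_eq_zero F 2
  let ψ := QuadraticAlgebra.lift (R := ZMod 2) (a := 1) (b := 1) (A := F) ⟨ω, by
    rw [one_smul, one_smul]; linear_combination hω - (ω + 1) * t⟩
  haveI : Fact (∀ r : ZMod 2, r ^ 2 ≠ 1 + 1 * r) := ⟨by decide⟩
  refine ⟨ψ.toRingHom, (ψ.toRingHom.injective).bijective_of_nat_card_le ?_⟩
  rw [Nat.card_congr (QuadraticAlgebra.equivProd 1 1), Nat.card_eq_fintype_card, hF]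
  simp

def good (M : Mt) : Prop := M.det = 1 ∧ Mᵀ * M.map (· ^ 2) = 1

instance (M : Mt) : Decidable (good M) := inferInstanceAs (Decidable (_ ∧ _))

def el (hF : Fintype.card F = 4) (ψ : K →+* F) (M : Mt) (h : good M) : SU 3 F 2 :=
  ⟨⟨ψ.mapMatrix M, by rw [← RingHom.map_det, h.1, map_one]⟩, fun u v => by
    haveI := char2 hF
    have h1 : ∀ j k, ∑ i, ψ (M i j) * ψ (M i k) ^ 2 = if j = k then 1 else 0 := fun j k => by
      have := congrArg ψ (congrFun (congrFun h.2 j) k)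
      simpa [Matrix.mul_apply, Matrix.one_apply, apply_ite ψ] using this
    show ∑ i, (ψ.mapMatrix M *ᵥ u) i * (ψ.mapMatrix M *ᵥ v) i ^ 2 = ∑ i, u i * v i ^ 2
    simp only [mulVec, dotProduct, RingHom.mapMatrix_apply, map_apply, sum_pow_char, mul_pow, Finset.sum_mul_sum]
    rw [Finset.sum_comm]
    refine Finset.sum_congr rfl fun j _ => ?_
    rw [Finset.sum_comm]
    have : ∀ k, ∑ i, ψ (M i j) * u j * (ψ (M i k) ^ 2 * v k ^ 2) = (if j = k then 1 else 0) * (u j * v k ^ 2) := fun k => by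
      rw [← h1, Finset.sum_mul]; exact Finset.sum_congr rfl fun i _ => by ring
    simp [this]⟩

open Classical in
noncomputable def T (hF : Fintype.card F = 4) (ψ : K →+* F) (M : Mt) : PSU 3 F 2 :=
  if h : good M then QuotientGroup.mk (el hF ψ M h) else 1

variable {hF : Fintype.card F = 4} {ψ : K →+* F}

theorem el_mul {M N : Mt} (h1 : good M) (h2 : good N) (h3 : good (M * N)) :
    el hF ψ M h1 * el hF ψ N h2 = el hF ψ (M * N) h3 := Subtype.ext (Subtype.ext (map_mul ψ.mapMatrix M N).symm)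

theorem T_mul {M N L : Mt} (c : K) (h : good M ∧ good N ∧ good L ∧ good (c • 1) ∧ M * N = L * c • 1) :
    T hF ψ M * T hF ψ N = T hF ψ L := by
  obtain ⟨h1, h2, h3, h4, h5⟩ := h
  have h6 : el hF ψ M h1 * el hF ψ N h2 = el hF ψ L h3 * el hF ψ (c • 1) h4 :=
    Subtype.ext (Subtype.ext ((map_mul ψ.mapMatrix M N).symm.trans (h5 ▸ map_mul ψ.mapMatrix L (c • 1))))
  have h7 : el hF ψ (c • 1) h4 ∈ center (SU 3 F 2) := mem_center_iff.2 fun g => Subtype.ext (Subtype.ext (by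
    have : ψ.mapMatrix (c • (1 : Mt)) = ψ c • (1 : Matrix (Fin 3) (Fin 3) F) := by
      ext i j; simp [Matrix.one_apply, apply_ite ψ]
    show g.1.1 * ψ.mapMatrix (c • (1 : Mt)) = ψ.mapMatrix (c • (1 : Mt)) * g.1.1
    rw [this]; simp))
  simp only [T, dif_pos h1, dif_pos h2, dif_pos h3]
  rw [← QuotientGroup.mk_mul, h6, QuotientGroup.mk_mul_of_mem _ h7]

theorem T_one : T hF ψ 1 = 1 := by
  have h : good 1 := by decide
  simp only [T, dif_pos h]
  rw [show el hF ψ 1 h = 1 from Subtype.ext (Subtype.ext (map_one ψ.mapMatrix))]; rfl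

theorem T_ne (hψ : Function.Injective ψ) {M : Mt} (N : Mt) (h : good M ∧ good N ∧ N * M ≠ M * N) : T hF ψ M ≠ 1 := by
  obtain ⟨h1, h2, h3⟩ := h
  simp only [T, dif_pos h1]
  intro h
  have := congrArg (fun g : SU 3 F 2 => g.1.1) (mem_center_iff.1 ((QuotientGroup.eq_one_iff _).1 h) (el hF ψ N h2))
  refine h3 (Matrix.map_injective hψ ?_)
  exact (map_mul ψ.mapMatrix N M).trans (this.trans (map_mul ψ.mapMatrix M N).symm)

def x : Mt := !![1, 0, 0; 0, w, 0; 0, 0, w2]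
def y : Mt := !![0, 0, 1; 1, 0, 0; 0, 1, 0]
def a : Mt := !![1, 1, 1; 1, w, w2; 1, w2, w]
def b : Mt := !![1, w, w; w2, w, w2; w2, w2, w]
def n (i j : ZMod 3) : Mt := x ^ i.val * y ^ j.val

theorem nmul : ∀ i j k l : ZMod 3, ∃ c ∈ [1, w, w2], good (n i j) ∧ good (n k l) ∧ good (n (i + k) (j + l)) ∧ good (c • 1) ∧
    n i j * n k l = n (i + k) (j + l) * c • 1 := by decide +kernel

theorem nne : ∀ i j : ZMod 3, (i, j) ≠ 0 → ∃ N ∈ [x, y], good (n i j) ∧ good N ∧ N * n i j ≠ n i j * N := by decide +kernel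

theorem ncj : ∀ g ∈ [a, b], ∀ i j : ZMod 3, ∃ k l : ZMod 3, ∃ c ∈ [1, w, w2],
    (good g ∧ good (n i j) ∧ good (g * n i j) ∧ good ((1 : K) • 1) ∧ g * n i j = g * n i j * (1 : K) • 1) ∧
    (good (n k l) ∧ good g ∧ good (g * n i j) ∧ good (c • 1) ∧ n k l * g = g * n i j * c • 1) := by decide +kernel

attribute [irreducible] T n

noncomputable def jN (hF : Fintype.card F = 4) (ψ : K →+* F) : Multiplicative (ZMod 3 × ZMod 3) →* PSU 3 F 2 :=
  MonoidHom.mk' (fun v => T hF ψ (n v.toAdd.1 v.toAdd.2)) fun u v => by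
    obtain ⟨c, -, h⟩ := nmul u.toAdd.1 u.toAdd.2 v.toAdd.1 v.toAdd.2
    exact (T_mul c h).symm

theorem jN_apply (v : Multiplicative (ZMod 3 × ZMod 3)) : jN hF ψ v = T hF ψ (n v.toAdd.1 v.toAdd.2) := by
  unfold jN
  rw [MonoidHom.mk'_apply]

attribute [irreducible] jN

theorem abs {G : Type*} [Group G] [Finite G] (h72 : Nat.card G = 72) (j : Multiplicative (ZMod 3 × ZMod 3) →* G)
    (inj : Function.Injective j) (A B : G) (nA : A ∈ normalizer (j.range : Set G)) (nB : B ∈ normalizer (j.range : Set G))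
    (b2 : B * B = A ^ 2) (a4 : A ^ 4 = 1) (a1 : A ^ 2 ≠ 1) (hi : A * B * A = B) :
    ∃ (N : Subgroup G) (_ : N.Normal), Nat.card N = 9 ∧ (∀ x ∈ N, x ^ 3 = 1) ∧ Nonempty (G ⧸ N ≃* QuaternionGroup 2) := by
  have c9 : Nat.card j.range = 9 := by
    rw [← Nat.card_congr (MonoidHom.ofInjective inj).toEquiv]; simp
  set N := j.range
  have ho : orderOf A = 2 * 2 := orderOf_eq_prime_pow (p := 2) (n := 1) (by simpa using a1) (by simpa using a4)
  replace hi : B * A * B⁻¹ = A⁻¹ := by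
    rw [mul_inv_eq_iff_eq_mul, eq_inv_mul_iff_mul_eq, ← mul_assoc, hi]
  have hn : B ∉ zpowers A := by
    rintro ⟨i, e⟩
    simp only at e
    rw [← e, show A ^ i * A * (A ^ i)⁻¹ = A by group, eq_inv_iff_mul_eq_one, ← pow_two] at hi
    exact a1 hi
  have iq := H5.quatHom_injective 2 A B ho b2 hi hn
  set q := H5.quatHom 2 A B (ho ▸ pow_orderOf_eq_one A) b2 hi with hq
  have c8 : Nat.card q.range = 8 := by
    rw [← Nat.card_congr (MonoidHom.ofInjective iq).toEquiv, Nat.card_eq_fintype_card, QuaternionGroup.card]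
  have hle : q.range ≤ normalizer (N : Set G) := by
    rw [hq, H5.quatHom_range, closure_le]
    rintro _ (rfl | rfl)
    · exact nA
    · exact nB
  have d1 := card_dvd_of_le hle
  have d2 := card_dvd_of_le (le_normalizer (H := N))
  rw [c8] at d1
  rw [c9] at d2
  have d3 := (by norm_num : Nat.Coprime 8 9).mul_dvd_of_dvd_of_dvd d1 d2
  have hN : N.Normal := normalizer_eq_top_iff.1 (eq_top_of_le_card _ (h72.le.trans (Nat.le_of_dvd Nat.card_pos d3)))
  refine ⟨N, hN, c9, ?_, ⟨(MulEquiv.ofBijective ((QuotientGroup.mk' N).comp q) (Function.Injective.bijective_of_nat_card_le ?_ ?_)).symm⟩⟩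
  · rintro _ ⟨v, rfl⟩
    rw [← map_pow, show v ^ 3 = 1 by revert v; decide, map_one]
  · refine (injective_iff_map_eq_one _).2 fun g hg => (injective_iff_map_eq_one _).1 iq g ?_
    have h1 : q g ∈ N := (QuotientGroup.eq_one_iff _).1 hg
    have h2 := N.orderOf_dvd_natCard h1
    have h3 := q.range.orderOf_dvd_natCard ⟨g, rfl⟩
    rw [c9] at h2
    rw [c8] at h3
    exact orderOf_eq_one_iff.1 (Nat.eq_one_of_dvd_coprimes (by norm_num : Nat.Coprime 8 9) h3 h2)
  · have := card_eq_card_quotient_mul_card_subgroup N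
    rw [h72, c9] at this
    rw [Nat.card_eq_fintype_card (α := QuaternionGroup 2), QuaternionGroup.card]
    omega

theorem nz : ∀ g ∈ [a, b], T hF ψ g ∈ normalizer ((jN hF ψ).range : Set (PSU 3 F 2)) := fun g hg => by
  haveI : Finite (Cfsg.PSU 3 F 2) := Nat.finite_of_card_ne_zero (by rw [(Cfsg.Agent.S0282.result hF).1]; omega)
  apply mem_normalizer_fintype
  rintro _ ⟨v, rfl⟩
  obtain ⟨k, l, c, -, h1, h2⟩ := ncj g hg v.toAdd.1 v.toAdd.2
  refine ⟨Multiplicative.ofAdd (k, l), ?_⟩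
  rw [eq_mul_inv_iff_mul_eq, jN_apply, jN_apply]
  exact (T_mul c h2).trans (T_mul 1 h1).symm

theorem a2 : T hF ψ a * T hF ψ a = T hF ψ (a * a) := T_mul 1 (by decide +kernel)
theorem b2 : T hF ψ b * T hF ψ b = T hF ψ (a * a) := T_mul 1 (by decide +kernel)
theorem a4 : T hF ψ (a * a) * T hF ψ (a * a) = T hF ψ 1 := T_mul 1 (by decide +kernel)
theorem ab : T hF ψ a * T hF ψ b = T hF ψ (a * b) := T_mul 1 (by decide +kernel)
theorem aba : T hF ψ (a * b) * T hF ψ a = T hF ψ b := T_mul 1 (by decide +kernel)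

theorem main (hF : Fintype.card F = 4) : ∃ (N : Subgroup (Cfsg.PSU 3 F 2)) (_ : N.Normal), Nat.card N = 9 ∧ (∀ x ∈ N, x ^ 3 = 1) ∧
    Nonempty (Cfsg.PSU 3 F 2 ⧸ N ≃* QuaternionGroup 2) := by
  obtain ⟨ψ, hψ, -⟩ := exψ hF
  have h72 := (Cfsg.Agent.S0282.result hF).1
  haveI : Finite (Cfsg.PSU 3 F 2) := Nat.finite_of_card_ne_zero (by omega)
  refine abs h72 (jN hF ψ) ((injective_iff_map_eq_one _).2 fun v hv => ?_) (T hF ψ a) (T hF ψ b) (nz a (by simp)) (nz b (by simp))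
    (by rw [pow_two, a2, b2]) (by rw [show 4 = 2 * 2 from rfl, pow_mul, pow_two, pow_two, a2, a4, T_one])
    (by rw [pow_two, a2]; exact T_ne hψ x (by decide +kernel)) (by rw [ab, aba])
  by_contra h
  obtain ⟨N, -, h1⟩ := nne v.toAdd.1 v.toAdd.2 fun e => h (Multiplicative.toAdd.injective e)
  rw [jN_apply] at hv
  exact T_ne hψ N h1 hv

end H4.U32
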